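import Cfsg.Agent.CoprimeMeta.Basic
import Cfsg.Agent.CoprimeAction.Basic
import Cfsg.Agent.PLocalBasics.CyclicIndex
import Cfsg.Agent.RankOneP.Basic

/-!
Internal coprime actions with `[S, A] = S`.
-/

set_option autoImplicit false
set_option linter.style.haveILetI false

namespace CfsgLib.CoprimeMeta

open scoped commutatorElement

variable {G : Type*} [Group G] {S A : Subgroup G}

/-- The conjugation action of `A` on a subgroup it normalizes. -/
noncomputable def actHom (hA : A ≤ Subgroup.normalizer (S : Set G)) : A →* MulAut S :=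
  S.normalizerMonoidHom.comp (Subgroup.inclusion hA)

theorem actHom_coe (hA : A ≤ Subgroup.normalizer (S : Set G)) (a : A) (x : S) :
    ((actHom hA a x : S) : G) = a * x * (a : G)⁻¹ := rfl

theorem generates_of_commutator (hA : A ≤ Subgroup.normalizer (S : Set G)) (h : ⁅S, A⁆ = S) :
    Generates (actHom hA) := by
  unfold Generates
  set D := Subgroup.closure {g : S | ∃ (a : A) (x : S), g = x⁻¹ * actHom hA a x} with hD
  have hle : S ≤ D.map S.subtype := by
    conv_lhs => rw [← h]
    rw [Subgroup.commutator_le]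
    intro s hs a ha
    refine ⟨(⟨s, hs⟩⁻¹ : S)⁻¹ * actHom hA ⟨a, ha⟩ (⟨s, hs⟩⁻¹ : S), Subgroup.subset_closure ⟨⟨a, ha⟩, _, rfl⟩, ?_⟩
    simp [actHom_coe, commutatorElement_def, mul_assoc]
  rw [eq_top_iff]
  intro x _
  obtain ⟨y, hy, hyx⟩ := hle x.2
  rwa [Subtype.ext hyx] at hy

theorem metacyclic_subgroup {R : Type*} [Group R] (hm : Cfsg.IsMetacyclic R) (H : Subgroup R) :
    Cfsg.IsMetacyclic H := by
  obtain ⟨N, hN, hNc, hQ⟩ := hm
  haveI := hN
  refine ⟨N.subgroupOf H, inferInstance, ?_, ?_⟩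
  · let f : N.subgroupOf H →* N := (H.subtype.comp (N.subgroupOf H).subtype).codRestrict N fun x => x.2
    exact isCyclic_of_injective f fun x y h => Subtype.ext (Subtype.ext (congrArg (fun n : N => (n : R)) h))
  · refine isCyclic_of_injective (QuotientGroup.map (N.subgroupOf H) N H.subtype fun x hx => hx) ?_
    rw [← MonoidHom.ker_eq_bot_iff, Subgroup.eq_bot_iff_forall]
    intro q hq
    obtain ⟨x, rfl⟩ := QuotientGroup.mk_surjective q
    exact (QuotientGroup.eq_one_iff x).2 ((QuotientGroup.eq_one_iff (x : R)).1 hq)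

theorem metacyclic_equiv {R R' : Type*} [Group R] [Group R'] (hm : Cfsg.IsMetacyclic R) (e : R ≃* R') :
    Cfsg.IsMetacyclic R' := by
  obtain ⟨N, hN, hNc, hQ⟩ := hm
  haveI := hN
  haveI : (N.map e.toMonoidHom).Normal := hN.map _ e.surjective
  exact ⟨N.map e.toMonoidHom, inferInstance,
    isCyclic_of_surjective (e.toMonoidHom.subgroupMap N) (MonoidHom.subgroupMap_surjective _ _),
    isCyclic_of_surjective (QuotientGroup.congr N (N.map e.toMonoidHom) e rfl) (MulEquiv.surjective _)⟩

/-- The structure of a metacyclic `p`-group under a coprime group. -/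
theorem coprime_structure [Finite G] {p : ℕ} [Fact p.Prime] (hp : p ≠ 2) {R : Subgroup G} (hR : IsPGroup p R)
    (hRm : Cfsg.IsMetacyclic R) (hA : A ≤ Subgroup.normalizer (R : Set G)) (hcop : (Nat.card A).Coprime p) :
    IsMulCommutative ↥⁅R, A⁆ ∧ ⁅R, A⁆ ⊔ (R ⊓ Subgroup.centralizer (A : Set G)) = R ∧
      ⁅R, A⁆ ⊓ (R ⊓ Subgroup.centralizer (A : Set G)) = ⊥ := by
  obtain ⟨k, hk⟩ := hR.exists_card_eq
  have hcop' : (Nat.card A).Coprime (Nat.card R) := hk ▸ hcop.pow_right k
  have hsolv : Group.IsSolvable A ∨ Group.IsSolvable R := Or.inr (haveI := hR.isNilpotent; inferInstance)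
  set S := ⁅R, A⁆ with hS
  have hSR : S ≤ R := CfsgLib.CoprimeAction.commutator_le_of_normalizer hA
  have hAS : A ≤ Subgroup.normalizer (S : Set G) := CfsgLib.CoprimeAction.le_normalizer_commutator hA
  have hgen : Generates (actHom hAS) :=
    generates_of_commutator hAS (CfsgLib.CoprimeAction.commutator_commutator_eq hA hcop' hsolv)
  have hSp : IsPGroup p S := hR.to_le hSR
  have hcomm : IsMulCommutative S := comm_of_metacyclic hp hSp (actHom hAS) hgen hcop
    (metacyclic_equiv (metacyclic_subgroup hRm (S.subgroupOf R)) (Subgroup.subgroupOfEquivOfLe hSR))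
  refine ⟨hcomm, CfsgLib.CoprimeAction.commutator_sup_centralizer hA hcop' hsolv, ?_⟩
  letI : CommGroup S := { (inferInstance : Group S) with mul_comm := fun a b => hcomm.is_comm.comm a b }
  rw [Subgroup.eq_bot_iff_forall]
  rintro x ⟨hxS, hxR, hxC⟩
  have := eq_one_of_fixed (actHom hAS) hgen hSp hcop (MonoidHom.id S) ⟨x, hxS⟩ fun a => Subtype.ext (by
    rw [MonoidHom.id_apply, MonoidHom.id_apply, actHom_coe]
    rw [Subgroup.mem_centralizer_iff.1 hxC a a.2, mul_inv_cancel_right])
  exact congrArg Subtype.val this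

end CfsgLib.CoprimeMeta
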