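import Mathlib
import Cfsg.Prelude.Def_OddOrderLocal
import Cfsg.Agent.PGroup.Basic
import Cfsg.Agent.NormalEl.Basic
import Cfsg.Agent.PLocalBasics.NormalElemAbelian

/-!
A metacyclic `p`-group, `p` odd, generated by the commutators with a coprime operator group is abelian.
-/

set_option autoImplicit false
set_option linter.style.haveILetI false

namespace CfsgLib.CoprimeMeta

open scoped commutatorElement

variable {p : ℕ} [hp : Fact p.Prime] {A : Type*} [Group A] [Finite A]

/-- `R` is generated by the commutators with `A`. -/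
def Generates {R : Type*} [Group R] (φ : A →* MulAut R) : Prop :=
  Subgroup.closure {g : R | ∃ (a : A) (x : R), g = x⁻¹ * φ a x} = ⊤

/-- A coprime operator group with `[R, A] = R` fixes nothing nontrivial in an abelian image. -/
theorem eq_one_of_fixed {R V : Type*} [Group R] [CommGroup V] (φ : A →* MulAut R) (hgen : Generates φ)
    (hV : IsPGroup p V) (hco : (Nat.card A).Coprime p) (π : R →* V) (w : R)
    (hw : ∀ a, π (φ a w) = π w) : π w = 1 := by
  classical
  haveI := Fintype.ofFinite A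
  let P : R →* V := ∏ a : A, π.comp (φ a).toMonoidHom
  have hP : ∀ x, P x = ∏ a : A, π (φ a x) := fun x => by simp [P, MonoidHom.finset_prod_apply]
  have hker : P.ker = ⊤ := by
    rw [eq_top_iff, ← hgen, Subgroup.closure_le]
    rintro _ ⟨b, x, rfl⟩
    have h : P (φ b x) = P x := by
      rw [hP, hP]
      exact Fintype.prod_equiv (Equiv.mulRight b) _ _ fun a => by simp [map_mul]
    simp [MonoidHom.mem_ker, h]
  have h1 : P w = 1 := MonoidHom.mem_ker.1 (hker ▸ Subgroup.mem_top w)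
  rw [hP, Finset.prod_congr rfl fun a _ => hw a, Finset.prod_const, Finset.card_univ,
    ← Nat.card_eq_fintype_card] at h1
  obtain ⟨k, hk⟩ := hV (π w)
  rw [← orderOf_eq_one_iff]
  exact Nat.eq_one_of_dvd_coprimes (hco.pow_right k) (orderOf_dvd_of_pow_eq_one h1) (orderOf_dvd_of_pow_eq_one hk)

theorem Generates.map {R R' : Type*} [Group R] [Group R'] {φ : A →* MulAut R} {ψ : A →* MulAut R'}
    (h : Generates φ) (f : R →* R') (hf : Function.Surjective f) (hcomm : ∀ a x, ψ a (f x) = f (φ a x)) :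
    Generates ψ := by
  rw [Generates, eq_top_iff, ← Subgroup.map_top_of_surjective f hf, ← h, MonoidHom.map_closure,
    Subgroup.closure_le]
  rintro _ ⟨_, ⟨a, x, rfl⟩, rfl⟩
  exact Subgroup.subset_closure ⟨a, f x, by rw [hcomm, map_mul, map_inv]⟩

/-- The case of a derived group of order `p`. -/
theorem comm_of_small_derived {R : Type*} [Group R] [Finite R] (hp2 : p ≠ 2) (hR : IsPGroup p R)
    (φ : A →* MulAut R) (hgen : Generates φ) (hco : (Nat.card A).Coprime p) (hm : Cfsg.IsMetacyclic R)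
    (hd : Nat.card (commutator R) = p) : False := by
  classical
  have hpp : p.Prime := hp.out
  obtain ⟨N, hN, hNc, hQ⟩ := hm
  haveI := hN
  haveI := hNc
  haveI := hQ
  -- `R' ≤ N`
  have hdN : commutator R ≤ N := by
    letI : CommGroup (R ⧸ N) := IsCyclic.commGroup
    exact Abelianization.commutator_subset_ker (QuotientGroup.mk' N) |>.trans_eq (QuotientGroup.ker_mk' N)
  have hdc : commutator R ≤ Subgroup.center R :=
    CfsgLib.PLocalBasics.le_center_of_card_le hR inferInstance hd.le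
  have h2 : ∀ a b : R, ⁅a, b⁆ ∈ Subgroup.center R := fun a b =>
    hdc (Subgroup.commutator_mem_commutator (Subgroup.mem_top a) (Subgroup.mem_top b))
  have hdp : ∀ c ∈ commutator R, c ^ p = 1 := fun c hc => by
    have h := congrArg Subtype.val (pow_card_eq_one' (x := (⟨c, hc⟩ : commutator R)))
    rw [hd] at h
    simpa using h
  have hcm : ∀ a b : R, ⁅a, b⁆ ∈ commutator R := fun a b =>
    Subgroup.commutator_mem_commutator (Subgroup.mem_top a) (Subgroup.mem_top b)
  have hmulp : ∀ x y : R, (x * y) ^ p = x ^ p * y ^ p := fun x y => by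
    obtain ⟨k, hk⟩ := CfsgLib.PGroup.dvd_choose_two (p := p) hp2
    rw [CfsgLib.PGroup.mul_pow_central (h2 y x), hk, pow_mul, hdp _ (hcm y x), one_pow, mul_one]
  let P1 : R →* R := MonoidHom.mk' (fun x => x ^ p) hmulp
  have hP1c : P1.range ≤ Subgroup.center R := by
    rintro _ ⟨x, rfl⟩
    refine Subgroup.mem_center_iff.2 fun g => ?_
    have h : ⁅x ^ p, g⁆ = 1 := by rw [CfsgLib.PGroup.commutator_pow_left h2, hdp _ (hcm x g)]
    exact (commutatorElement_eq_one_iff_mul_comm.1 h).symm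
  have hpowhom : ∀ k : ℕ, ∀ x y : R, (x * y) ^ p ^ k = x ^ p ^ k * y ^ p ^ k := by
    intro k
    induction k with
    | zero => simp
    | succ k ih => intro x y; rw [pow_succ, pow_mul, ih, hmulp, ← pow_mul, ← pow_mul]
  set Φ : Subgroup R := P1.range ⊔ commutator R with hΦ
  haveI hΦn : Φ.Normal := ⟨fun x hx g => by
    rw [Subgroup.mem_center_iff.1 ((sup_le hP1c hdc) hx) g, mul_inv_cancel_right]; exact hx⟩
  have hΦc : Φ ≤ Subgroup.center R := sup_le hP1c hdc
  have hΦinv : ∀ a, ∀ x ∈ Φ, φ a x ∈ Φ := by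
    intro a x hx
    have hle : Φ ≤ Φ.comap (φ a).toMonoidHom := by
      refine sup_le ?_ ?_
      · rintro _ ⟨y, rfl⟩
        exact Subgroup.mem_sup_left ⟨φ a y, by simp [P1]⟩
      · rw [← Subgroup.map_le_iff_le_comap, commutator_def, Subgroup.map_commutator]
        exact (Subgroup.commutator_mono le_top le_top).trans le_sup_right
    exact hle hx
  letI : CommGroup (R ⧸ Φ) := { (inferInstance : Group (R ⧸ Φ)) with
    mul_comm := fun x y => by
      obtain ⟨x, rfl⟩ := QuotientGroup.mk_surjective x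
      obtain ⟨y, rfl⟩ := QuotientGroup.mk_surjective y
      rw [← QuotientGroup.mk_mul, ← QuotientGroup.mk_mul, QuotientGroup.eq]
      have h := hcm y⁻¹ x⁻¹
      rw [commutatorElement_def, inv_inv, inv_inv] at h
      exact Subgroup.mem_sup_right (by simpa [mul_assoc] using h) }
  have hnab : ∃ x y : R, ⁅x, y⁆ ≠ 1 := by
    by_contra hc
    push Not at hc
    have : commutator R = ⊥ := by
      rw [eq_bot_iff, commutator_def, Subgroup.commutator_le]
      exact fun x _ y _ => Subgroup.mem_bot.2 (hc x y)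
    rw [this, Subgroup.card_bot] at hd
    exact hpp.one_lt.ne hd
  -- generators
  obtain ⟨a0, ha0⟩ := IsCyclic.exists_generator (α := N)
  obtain ⟨bq, hbq⟩ := IsCyclic.exists_generator (α := R ⧸ N)
  obtain ⟨b0, rfl⟩ := QuotientGroup.mk_surjective bq
  have hgen2 : ∀ x : R, ∃ i j : ℤ, x = (a0 : R) ^ i * b0 ^ j := by
    intro x
    obtain ⟨j, hj⟩ := Subgroup.mem_zpowers_iff.1 (hbq (x : R ⧸ N))
    have h : x * (b0 ^ j)⁻¹ ∈ N := by
      rw [← QuotientGroup.eq_one_iff, QuotientGroup.mk_mul, QuotientGroup.mk_inv, QuotientGroup.mk_zpow, hj,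
        mul_inv_cancel]
    obtain ⟨i, hi⟩ := Subgroup.mem_zpowers_iff.1 (ha0 ⟨_, h⟩)
    refine ⟨i, j, ?_⟩
    have hi' : (a0 : R) ^ i = x * (b0 ^ j)⁻¹ := by
      rw [← Subgroup.coe_zpow, hi]
    rw [hi', inv_mul_cancel_right]
  have hVp : ∀ v : R ⧸ Φ, v ^ p = 1 := fun v => by
    obtain ⟨v, rfl⟩ := QuotientGroup.mk_surjective v
    rw [← QuotientGroup.mk_pow, QuotientGroup.eq_one_iff]
    exact Subgroup.mem_sup_left ⟨v, rfl⟩
  have hVP : IsPGroup p (R ⧸ Φ) := fun v => ⟨1, by rw [pow_one]; exact hVp v⟩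
  have hV2 : Nat.card (R ⧸ Φ) ≤ p ^ 2 := by
    have hsurj : Function.Surjective (fun ij : Fin p × Fin p =>
        (((a0 : R) : R ⧸ Φ)) ^ (ij.1 : ℕ) * ((b0 : R ⧸ Φ)) ^ (ij.2 : ℕ)) := by
      intro v
      obtain ⟨x, rfl⟩ := QuotientGroup.mk_surjective v
      obtain ⟨i, j, rfl⟩ := hgen2 x
      have hr : ∀ (v : R ⧸ Φ) (i : ℤ), v ^ i = v ^ (i % (p : ℤ)).toNat := fun v i => by
        conv_lhs => rw [← Int.emod_add_mul_ediv i p]
        rw [zpow_add, zpow_mul, zpow_natCast, hVp, one_zpow, mul_one, ← zpow_natCast,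
          Int.toNat_of_nonneg (Int.emod_nonneg _ (by exact_mod_cast hpp.pos.ne'))]
      have hlt : ∀ i : ℤ, (i % (p : ℤ)).toNat < p := fun i => by
        have h1 := Int.emod_lt_of_pos i (show (0 : ℤ) < p by exact_mod_cast hpp.pos)
        have h2 := hpp.pos
        omega
      refine ⟨(⟨_, hlt i⟩, ⟨_, hlt j⟩), ?_⟩
      rw [QuotientGroup.mk_mul, QuotientGroup.mk_zpow, QuotientGroup.mk_zpow, hr _ i, hr _ j]
    calc Nat.card (R ⧸ Φ) ≤ Nat.card (Fin p × Fin p) := Nat.card_le_card_of_surjective _ hsurj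
      _ = p ^ 2 := by rw [Nat.card_prod, Nat.card_fin, pow_two]
  -- the derived group
  obtain ⟨z, hzd, hz1⟩ : ∃ z ∈ commutator R, z ≠ 1 := by
    obtain ⟨x, y, h⟩ := hnab
    exact ⟨_, hcm x y, h⟩
  have hzo : orderOf z = p := orderOf_eq_prime (hdp z hzd) hz1
  have hdz : commutator R = Subgroup.zpowers z :=
    (Subgroup.eq_of_le_of_card_ge (Subgroup.zpowers_le.2 hzd) (by rw [hd, Nat.card_zpowers, hzo])).symm
  -- `z` is a `p`-th power
  have hz0 : z ∈ P1.range := by
    obtain ⟨i, hi⟩ := Subgroup.mem_zpowers_iff.1 (ha0 ⟨z, hdN hzd⟩)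
    obtain ⟨j, hj⟩ := (hR.to_subgroup N).exists_card_eq
    have hoa : orderOf a0 = p ^ j := by
      rw [← hj, ← Nat.card_zpowers, (Subgroup.eq_top_iff' _).2 ha0, Subgroup.card_top]
    have hj2 : 2 ≤ j := by
      by_contra hlt
      have hNd : N = commutator R := (Subgroup.eq_of_le_of_card_ge hdN (by
        rw [hj, hd]
        exact (Nat.pow_le_pow_right hpp.pos (show j ≤ 1 by omega)).trans_eq (pow_one p))).symm
      obtain ⟨x, y, hxy⟩ := hnab
      refine hxy (commutatorElement_eq_one_iff_mul_comm.2 ?_)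
      exact commutative_of_cyclic_center_quotient (QuotientGroup.mk' N)
        (by rw [QuotientGroup.ker_mk', hNd]; exact hdc) x y
    have h1 : (orderOf a0 : ℤ) ∣ i * p := by
      rw [orderOf_dvd_iff_zpow_eq_one, zpow_mul, zpow_natCast, hi]
      exact Subtype.ext (by rw [Subgroup.coe_pow, hdp z hzd, Subgroup.coe_one])
    rw [hoa, show j = (j - 1) + 1 by omega, pow_succ, Nat.cast_mul] at h1
    have h2 : ((p ^ (j - 1) : ℕ) : ℤ) ∣ i := Int.dvd_of_mul_dvd_mul_right (by exact_mod_cast hpp.pos.ne') h1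
    obtain ⟨c, hc⟩ := (dvd_trans (show (p : ℤ) ∣ ((p ^ (j - 1) : ℕ) : ℤ) by
      exact_mod_cast dvd_pow_self p (show j - 1 ≠ 0 by omega)) h2)
    refine ⟨(a0 : R) ^ c, ?_⟩
    show ((a0 : R) ^ c) ^ p = z
    rw [← zpow_natCast, ← zpow_mul, mul_comm, ← hc, ← Subgroup.coe_zpow, hi]
  -- maximal exponent
  have hex : ∃ m : ℕ, ∀ y : R, y ^ p ^ m ≠ z := by
    obtain ⟨n, hn⟩ := hR.exists_card_eq
    exact ⟨n, fun y h => hz1 (by rw [← h, ← hn, pow_card_eq_one'])⟩
  set m := Nat.find hex with hm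
  have hm2 : 2 ≤ m := by
    by_contra hlt
    obtain ⟨y, hy⟩ := hz0
    rcases Nat.lt_or_ge m 1 with h | h
    · exact Nat.find_spec hex z (by rw [← hm, show m = 0 by omega, pow_zero, pow_one])
    · exact Nat.find_spec hex y (by rw [← hm, show m = 1 by omega, pow_one]; exact hy)
  obtain ⟨u, hu⟩ : ∃ u : R, u ^ p ^ (m - 1) = z := by
    have := Nat.find_min hex (show m - 1 < m by omega)
    push Not at this
    exact this
  set k := m - 1 with hk
  let S : Subgroup R :=
    { carrier := {x | x ^ p ^ k ∈ commutator R}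
      one_mem' := by simp
      mul_mem' := fun {x y} hx hy => by
        show (x * y) ^ p ^ k ∈ commutator R
        rw [hpowhom]; exact Subgroup.mul_mem _ hx hy
      inv_mem' := fun {x} hx => by
        show (x⁻¹) ^ p ^ k ∈ commutator R
        rw [inv_pow]; exact Subgroup.inv_mem _ hx }
  have hSinv : ∀ a, ∀ x ∈ S, φ a x ∈ S := fun a x hx => by
    show (φ a x) ^ p ^ k ∈ commutator R
    rw [← map_pow]
    exact Subgroup.characteristic_iff_map_le.1 inferInstance (φ a) ⟨_, hx, rfl⟩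
  have hSΦ : ∀ x ∈ S, x ∈ Φ → x ^ p ^ k = 1 := by
    intro x hx hxΦ
    haveI : P1.range.Normal := ⟨fun y hy g => by
      rw [Subgroup.mem_center_iff.1 (hP1c hy) g, mul_inv_cancel_right]; exact hy⟩
    obtain ⟨_, ⟨y, rfl⟩, r, hr, rfl⟩ := Subgroup.mem_sup_of_normal_left.1 hxΦ
    have hpk : (y ^ p * r) ^ p ^ k = y ^ p ^ m := by
      rw [hpowhom, ← pow_mul, ← pow_succ', show k + 1 = m by omega,
        show p ^ k = p * p ^ (k - 1) by rw [← pow_succ']; congr 1; omega, pow_mul r, hdp r hr, one_pow, mul_one]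
    have hS : (y ^ p * r) ^ p ^ k ∈ commutator R := hx
    show (y ^ p * r) ^ p ^ k = 1
    by_contra hne
    rw [hpk] at hS hne
    have hgen' : Subgroup.zpowers (y ^ p ^ m) = commutator R :=
      Subgroup.eq_of_le_of_card_ge (Subgroup.zpowers_le.2 hS) (by
        rw [hd, Nat.card_zpowers, orderOf_eq_prime (hdp _ hS) hne])
    obtain ⟨i, hi⟩ := Subgroup.mem_zpowers_iff.1 (hgen' ▸ hzd : z ∈ Subgroup.zpowers (y ^ p ^ m))
    refine Nat.find_spec hex (y ^ i) ?_
    rw [← hm, ← hi, ← zpow_natCast, ← zpow_natCast, ← zpow_mul, ← zpow_mul, mul_comm]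
  have huS : u ∈ S := show u ^ p ^ k ∈ commutator R from hu.symm ▸ hzd
  have huΦ : u ∉ Φ := fun h => hz1 (hu ▸ hSΦ u huS h)
  let π : R →* R ⧸ Φ := QuotientGroup.mk' Φ
  have hπ0 : ∀ x, π x = 1 ↔ x ∈ Φ := fun x => QuotientGroup.eq_one_iff x
  have hπu : π u ≠ 1 := fun h => huΦ ((hπ0 u).1 h)
  have hou : orderOf (π u) = p := orderOf_eq_prime (hVp _) hπu
  have hcentral : ∀ c ∈ Φ, ∀ x, ⁅x, c⁆ = 1 := fun c hc x =>
    commutatorElement_eq_one_iff_mul_comm.2 (Subgroup.mem_center_iff.1 (hΦc hc) x)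
  -- a second generator
  have hgenw : ∀ w : R, π w ∉ Subgroup.zpowers (π u) →
      (∀ x : R, ∃ (i j : ℤ) (f : R), f ∈ Φ ∧ x = u ^ i * w ^ j * f) ∧ ⁅u, w⁆ ≠ 1 := by
    intro w hw
    have htop : Subgroup.zpowers (π u) ⊔ Subgroup.zpowers (π w) = ⊤ := by
      refine Subgroup.eq_top_of_le_card _ (hV2.trans ?_)
      refine CfsgLib.NormalEl.pow_succ_le_card hVP (lt_of_le_of_ne le_sup_left fun h => hw ?_) (k := 1)
        (by rw [Nat.card_zpowers, hou, pow_one])
      exact h ▸ (le_sup_right : Subgroup.zpowers (π w) ≤ _) (Subgroup.mem_zpowers _)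
    have hall : ∀ x : R, ∃ (i j : ℤ) (f : R), f ∈ Φ ∧ x = u ^ i * w ^ j * f := by
      intro x
      have hx : π x ∈ Subgroup.zpowers (π u) ⊔ Subgroup.zpowers (π w) := by rw [htop]; trivial
      obtain ⟨_, ⟨i, rfl⟩, _, ⟨j, rfl⟩, hij⟩ := Subgroup.mem_sup.1 hx
      refine ⟨i, j, (u ^ i * w ^ j)⁻¹ * x, ?_, by group⟩
      rw [← hπ0, map_mul, map_inv, map_mul, map_zpow, map_zpow]
      exact inv_mul_eq_one.2 hij
    refine ⟨hall, fun h => ?_⟩
    have huc : u ∈ Subgroup.center R := Subgroup.mem_center_iff.2 fun x => by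
      obtain ⟨i, j, f, hf, rfl⟩ := hall x
      have huw : Commute u w := commutatorElement_eq_one_iff_mul_comm.1 h
      exact (((Commute.refl u).zpow_right i).mul_right (huw.zpow_right j) |>.mul_right
        (Subgroup.mem_center_iff.1 (hΦc hf) u)).symm.eq
    obtain ⟨x, y, hxy⟩ := hnab
    refine hxy (commutatorElement_eq_one_iff_mul_comm.2 ?_)
    obtain ⟨i, j, f, hf, rfl⟩ := hall x
    obtain ⟨i', j', f', hf', rfl⟩ := hall y
    have c1 : ∀ g, Commute (u ^ i) g := fun g =>
      (Subgroup.mem_center_iff.1 (Subgroup.zpow_mem _ huc i) g).symm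
    have c2 : ∀ g, Commute (u ^ i') g := fun g =>
      (Subgroup.mem_center_iff.1 (Subgroup.zpow_mem _ huc i') g).symm
    have c3 : ∀ g, Commute f g := fun g => (Subgroup.mem_center_iff.1 (hΦc hf) g).symm
    have c4 : ∀ g, Commute f' g := fun g => (Subgroup.mem_center_iff.1 (hΦc hf') g).symm
    have c5 : Commute (w ^ j) (u ^ i' * w ^ j' * f') :=
      (((c2 _).symm).mul_right ((Commute.refl w).zpow_zpow j j')).mul_right (c4 _).symm
    exact (((c1 _).mul_left c5).mul_left (c3 _)).eq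
  have hzmem : ∀ c ∈ commutator R, ∃ i : ℤ, c = z ^ i := fun c hc => by
    obtain ⟨i, hi⟩ := Subgroup.mem_zpowers_iff.1 (hdz ▸ hc : c ∈ Subgroup.zpowers z)
    exact ⟨i, hi.symm⟩
  -- commutators of words
  have hl : ∀ (x y : R) (i : ℤ), ⁅x ^ i, y⁆ = ⁅x, y⁆ ^ i := by
    intro x y i
    let f : R →* R := MonoidHom.mk' (fun g => ⁅g, y⁆)
      fun g g' => CfsgLib.PGroup.commutator_mul_left_central (h2 g' y)
    exact map_zpow f x i
  have hrr : ∀ (x y : R) (i : ℤ), ⁅x, y ^ i⁆ = ⁅x, y⁆ ^ i := by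
    intro x y i
    let f : R →* R := MonoidHom.mk' (fun g => ⁅x, g⁆)
      fun g g' => CfsgLib.PGroup.commutator_mul_right_central (h2 x g')
    exact map_zpow f y i
  have hzpk : ∀ (x : R) (i : ℤ), (x ^ i) ^ p ^ k = (x ^ p ^ k) ^ i := fun x i => by
    rw [← zpow_natCast, ← zpow_natCast, ← zpow_mul, ← zpow_mul, mul_comm]
  by_cases hB : ∀ x : R, ∃ s ∈ S, π s = π x
  · -- the line killed by the power map is fixed
    obtain ⟨w, hw0, hwu⟩ : ∃ w : R, w ^ p ^ k = 1 ∧ π w ∉ Subgroup.zpowers (π u) := by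
      obtain ⟨x, hx⟩ : ∃ x : R, π x ∉ Subgroup.zpowers (π u) := by
        by_contra hc
        push Not at hc
        obtain ⟨x, y, hxy⟩ := hnab
        obtain ⟨i, hi⟩ := Subgroup.mem_zpowers_iff.1 (hc x)
        obtain ⟨j, hj⟩ := Subgroup.mem_zpowers_iff.1 (hc y)
        have hxf : (u ^ i)⁻¹ * x ∈ Φ := (hπ0 _).1 (by rw [map_mul, map_inv, map_zpow, hi, inv_mul_cancel])
        have hyf : (u ^ j)⁻¹ * y ∈ Φ := (hπ0 _).1 (by rw [map_mul, map_inv, map_zpow, hj, inv_mul_cancel])
        refine hxy ?_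
        rw [show x = u ^ i * ((u ^ i)⁻¹ * x) by group, show y = u ^ j * ((u ^ j)⁻¹ * y) by group,
          CfsgLib.PGroup.commutator_mul_right_central (h2 _ _), hcentral _ hyf, mul_one, hrr,
          CfsgLib.PGroup.commutator_mul_left_central (h2 _ _), hl, commutatorElement_self, one_zpow, one_mul,
          commutatorElement_eq_one_iff_mul_comm.2 (Subgroup.mem_center_iff.1 (hΦc hxf) u).symm, one_zpow]
      obtain ⟨s, hs, hsx⟩ := hB x
      obtain ⟨i, hi⟩ := hzmem _ hs
      refine ⟨s * (u ^ i)⁻¹, ?_, ?_⟩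
      · rw [hpowhom, inv_pow, hzpk, hu, hi, mul_inv_cancel]
      · rw [map_mul, map_inv, map_zpow, hsx]
        intro h
        refine hx ?_
        have := Subgroup.mul_mem _ h (Subgroup.zpow_mem _ (Subgroup.mem_zpowers (π u)) i)
        rwa [inv_mul_cancel_right] at this
    obtain ⟨hall, huw⟩ := hgenw w hwu
    have hfix : ∀ a, π (φ a w) = π w := by
      intro a
      obtain ⟨i, j, f, hf, hwa⟩ := hall (φ a w)
      have hwS : w ∈ S := show w ^ p ^ k ∈ commutator R by rw [hw0]; exact one_mem _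
      have hfS : f ∈ S := by
        have h := S.mul_mem (S.inv_mem (S.mul_mem (S.zpow_mem huS i) (S.zpow_mem hwS j))) (hSinv a w hwS)
        rwa [hwa, inv_mul_cancel_left] at h
      have hi : z ^ i = 1 := by
        have h := congrArg (· ^ p ^ k) hwa
        rw [← map_pow, hw0, map_one, hpowhom, hpowhom, hzpk, hzpk, hu, hw0, one_zpow, mul_one,
          hSΦ f hfS hf, mul_one] at h
        exact h.symm
      have hπui : π u ^ i = 1 := orderOf_dvd_iff_zpow_eq_one.1 (by
        rw [hou, ← hzo]; exact orderOf_dvd_iff_zpow_eq_one.2 hi)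
      have hui : u ^ i ∈ Φ := by rw [← hπ0, map_zpow, hπui]
      obtain ⟨n, l, f', hf', hua⟩ := hall (φ a u)
      have hzn : φ a z = z ^ n := by
        have hf'S : f' ∈ S := by
          have h := S.mul_mem (S.inv_mem (S.mul_mem (S.zpow_mem huS n) (S.zpow_mem hwS l))) (hSinv a u huS)
          rwa [hua, inv_mul_cancel_left] at h
        have h := congrArg (· ^ p ^ k) hua
        rw [← map_pow, hu, hpowhom, hpowhom, hzpk, hzpk, hu, hw0, one_zpow, mul_one,
          hSΦ f' hf'S hf', mul_one] at h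
        exact h
      obtain ⟨c, hc⟩ := hzmem _ (hcm u w)
      have hd1 : φ a ⁅u, w⁆ = ⁅u, w⁆ ^ n := by
        rw [hc, map_zpow, hzn, ← zpow_mul, ← zpow_mul, mul_comm]
      have hd2 : φ a ⁅u, w⁆ = ⁅u, w⁆ ^ (n * j) := by
        rw [map_commutatorElement, hua, hwa]
        rw [CfsgLib.PGroup.commutator_mul_right_central (h2 _ _), hcentral f hf, mul_one,
          CfsgLib.PGroup.commutator_mul_right_central (h2 _ _), hcentral _ hui, one_mul, hrr,
          CfsgLib.PGroup.commutator_mul_left_central (h2 _ _),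
          commutatorElement_eq_one_iff_mul_comm.2 (Subgroup.mem_center_iff.1 (hΦc hf') w).symm, mul_one,
          CfsgLib.PGroup.commutator_mul_left_central (h2 _ _), hl, hl, commutatorElement_self, one_zpow,
          mul_one, ← zpow_mul]
      have hn0 : ¬ (p : ℤ) ∣ n := fun h => by
        have : φ a z = 1 := by rw [hzn]; exact orderOf_dvd_iff_zpow_eq_one.1 (by rwa [hzo])
        exact hz1 ((φ a).injective (this.trans (map_one _).symm))
      have hduw : orderOf ⁅u, w⁆ = p := orderOf_eq_prime (hdp _ (hcm u w)) huw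
      have hj : (p : ℤ) ∣ n * (j - 1) := by
        rw [← hduw, orderOf_dvd_iff_zpow_eq_one, mul_sub, mul_one, zpow_sub, ← hd1, ← hd2, mul_inv_cancel]
      have hj' : (p : ℤ) ∣ j - 1 := ((Nat.prime_iff_prime_int.1 hpp).dvd_or_dvd hj).resolve_left hn0
      obtain ⟨e, he⟩ := hj'
      rw [hwa, map_mul, map_mul, map_zpow, map_zpow, hπui, one_mul, (hπ0 f).2 hf, mul_one,
        show j = 1 + (p : ℤ) * e by omega, zpow_add, zpow_one, zpow_mul, zpow_natCast, hVp, one_zpow, mul_one]
    have := eq_one_of_fixed φ hgen hVP hco π w hfix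
    exact hwu (this ▸ one_mem _)
  · -- the image of `S` is a line with fixed quotient
    push Not at hB
    obtain ⟨w, hw⟩ := hB
    have hwu : π w ∉ Subgroup.zpowers (π u) := fun h => by
      obtain ⟨i, hi⟩ := Subgroup.mem_zpowers_iff.1 h
      exact hw (u ^ i) (S.zpow_mem huS i) (by rw [map_zpow, hi])
    obtain ⟨hall, huw⟩ := hgenw w hwu
    have hSline : ∀ s ∈ S, π s ∈ Subgroup.zpowers (π u) := by
      intro s hs
      by_contra hne
      obtain ⟨hall', -⟩ := hgenw s hne
      obtain ⟨i, j, f, hf, hwe⟩ := hall' w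
      refine hw (u ^ i * s ^ j) (S.mul_mem (S.zpow_mem huS i) (S.zpow_mem hs j)) ?_
      rw [hwe, map_mul π (u ^ i * s ^ j) f, (hπ0 f).2 hf, mul_one]
    let L := (Subgroup.zpowers (π u)).comap π
    haveI hLn : L.Normal := inferInstance
    have hdiff : ∀ (a : A) (x : R), x⁻¹ * φ a x ∈ L := by
      intro a
      have hsub : ∀ x : R, π x ∈ Subgroup.zpowers (π u) → π (φ a x) ∈ Subgroup.zpowers (π u) := by
        intro x hx
        obtain ⟨i, hi⟩ := Subgroup.mem_zpowers_iff.1 hx
        have hf : (u ^ i)⁻¹ * x ∈ Φ := (hπ0 _).1 (by rw [map_mul, map_inv, map_zpow, hi, inv_mul_cancel])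
        rw [show x = u ^ i * ((u ^ i)⁻¹ * x) by group, map_mul, map_mul, map_zpow, map_zpow,
          (hπ0 _).2 (hΦinv a _ hf), mul_one]
        exact Subgroup.zpow_mem _ (hSline _ (hSinv a u huS)) i
      obtain ⟨n, hn⟩ := Subgroup.mem_zpowers_iff.1 (hSline _ (hSinv a u huS))
      have hf0 : (u ^ n)⁻¹ * φ a u ∈ Φ := (hπ0 _).1 (by rw [map_mul, map_inv, map_zpow, hn, inv_mul_cancel])
      set f0 := (u ^ n)⁻¹ * φ a u with hf0def
      have hua : φ a u = u ^ n * f0 := by rw [hf0def, mul_inv_cancel_left]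
      have hzn : φ a z = z ^ n := by
        have h := congrArg (· ^ p ^ k) hua
        rwa [← map_pow, hu, hpowhom, hzpk, hu,
          hSΦ f0 (S.mul_mem (S.inv_mem (S.zpow_mem huS n)) (hSinv a u huS)) hf0, mul_one] at h
      obtain ⟨i, j, f, hf, hwa⟩ := hall (φ a w)
      obtain ⟨c, hc⟩ := hzmem _ (hcm u w)
      have hd1 : φ a ⁅u, w⁆ = ⁅u, w⁆ ^ n := by
        rw [hc, map_zpow, hzn, ← zpow_mul, ← zpow_mul, mul_comm]
      have hd2 : φ a ⁅u, w⁆ = ⁅u, w⁆ ^ (n * j) := by
        rw [map_commutatorElement, hua, hwa]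
        rw [CfsgLib.PGroup.commutator_mul_right_central (h2 _ _), hcentral f hf, mul_one,
          CfsgLib.PGroup.commutator_mul_left_central (h2 _ _),
          commutatorElement_eq_one_iff_mul_comm.2 (Subgroup.mem_center_iff.1 (hΦc hf0) _).symm, mul_one,
          CfsgLib.PGroup.commutator_mul_right_central (h2 _ _), hrr, hrr, hl, hl, commutatorElement_self,
          one_zpow, one_zpow, one_mul, ← zpow_mul]
      have hn0 : ¬ (p : ℤ) ∣ n := fun h => by
        have : φ a z = 1 := by rw [hzn]; exact orderOf_dvd_iff_zpow_eq_one.1 (by rwa [hzo])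
        exact hz1 ((φ a).injective (this.trans (map_one _).symm))
      have hduw : orderOf ⁅u, w⁆ = p := orderOf_eq_prime (hdp _ (hcm u w)) huw
      have hj : (p : ℤ) ∣ n * (j - 1) := by
        rw [← hduw, orderOf_dvd_iff_zpow_eq_one, mul_sub, mul_one, zpow_sub, ← hd1, ← hd2, mul_inv_cancel]
      obtain ⟨e, he⟩ := ((Nat.prime_iff_prime_int.1 hpp).dvd_or_dvd hj).resolve_left hn0
      have hwdiff : (π w)⁻¹ * π (φ a w) ∈ Subgroup.zpowers (π u) := by
        rw [hwa, map_mul, map_mul, map_zpow, map_zpow, (hπ0 f).2 hf, mul_one,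
          show j = 1 + (p : ℤ) * e by omega, zpow_add, zpow_one, zpow_mul, zpow_natCast, hVp, one_zpow,
          mul_one, mul_comm (π u ^ i) (π w), inv_mul_cancel_left]
        exact Subgroup.zpow_mem_zpowers _ i
      intro x
      obtain ⟨i', j', f', hf', rfl⟩ := hall x
      show π ((u ^ i' * w ^ j' * f')⁻¹ * φ a (u ^ i' * w ^ j' * f')) ∈ Subgroup.zpowers (π u)
      have hex' : π ((u ^ i' * w ^ j' * f')⁻¹ * φ a (u ^ i' * w ^ j' * f')) =
          ((π u ^ i')⁻¹ * π (φ a u) ^ i') * ((π w)⁻¹ * π (φ a w)) ^ j' := by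
        simp only [map_mul, map_inv, map_zpow, (hπ0 f').2 hf', (hπ0 _).2 (hΦinv a f' hf'), mul_one, inv_one,
          mul_zpow, inv_zpow, mul_inv_rev]
        simp only [one_mul]
        simp only [mul_comm, mul_left_comm, mul_assoc]
      rw [hex']
      exact Subgroup.mul_mem _ (Subgroup.mul_mem _ (Subgroup.inv_mem _ (Subgroup.zpow_mem_zpowers _ i'))
        (Subgroup.zpow_mem _ (hsub u (Subgroup.mem_zpowers _)) i')) (Subgroup.zpow_mem _ hwdiff j')
    have htop : (⊤ : Subgroup R) ≤ L := by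
      rw [← hgen, Subgroup.closure_le]
      rintro _ ⟨a, x, rfl⟩
      exact hdiff a x
    exact hwu (htop (Subgroup.mem_top w))

/-- A metacyclic `p`-group with `[R, A] = R` for a coprime operator group `A` is abelian. -/
theorem comm_of_metacyclic {R : Type*} [Group R] [Finite R] (hp2 : p ≠ 2) (hR : IsPGroup p R)
    (φ : A →* MulAut R) (hgen : Generates φ) (hco : (Nat.card A).Coprime p) (hm : Cfsg.IsMetacyclic R) :
    IsMulCommutative R := by
  classical
  by_contra hnc
  set D := commutator R with hD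
  have hDne : D ≠ ⊥ := fun h => hnc ⟨⟨fun x y => commutatorElement_eq_one_iff_mul_comm.1 (by
    have := Subgroup.commutator_mem_commutator (Subgroup.mem_top x) (Subgroup.mem_top y)
    rwa [← commutator_def, ← hD, h, Subgroup.mem_bot] at this)⟩⟩
  obtain ⟨N, hN, hNc, hQ⟩ := hm
  haveI := hN
  haveI := hNc
  haveI := hQ
  have hDN : D ≤ N := by
    letI : CommGroup (R ⧸ N) := IsCyclic.commGroup
    exact Abelianization.commutator_subset_ker (QuotientGroup.mk' N) |>.trans_eq (QuotientGroup.ker_mk' N)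
  haveI : IsCyclic D := isCyclic_of_injective (Subgroup.inclusion hDN) (Subgroup.inclusion_injective hDN)
  let T : Subgroup R :=
    { carrier := {x | ∃ y ∈ D, y ^ p = x}
      one_mem' := ⟨1, one_mem _, one_pow _⟩
      mul_mem' := by
        rintro _ _ ⟨y, hy, rfl⟩ ⟨y', hy', rfl⟩
        letI : CommGroup D := IsCyclic.commGroup
        refine ⟨y * y', D.mul_mem hy hy', Commute.mul_pow ?_ p⟩
        exact congrArg Subtype.val (mul_comm (⟨y, hy⟩ : D) ⟨y', hy'⟩)
      inv_mem' := by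
        rintro _ ⟨y, hy, rfl⟩
        exact ⟨y⁻¹, D.inv_mem hy, inv_pow _ _⟩ }
  haveI hTn : T.Normal := ⟨by
    rintro _ ⟨y, hy, rfl⟩ g
    exact ⟨g * y * g⁻¹, (inferInstance : D.Normal).conj_mem y hy g, conj_pow⟩⟩
  have hTinv : ∀ a, ∀ x ∈ T, φ a x ∈ T := by
    rintro a _ ⟨y, hy, rfl⟩
    exact ⟨φ a y, Subgroup.characteristic_iff_map_le.1 inferInstance (φ a) ⟨y, hy, rfl⟩, (map_pow _ _ _).symm⟩
  let ψ : A →* MulAut (R ⧸ T) :=
    { toFun := fun a => QuotientGroup.congr T T (φ a) (le_antisymm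
        (by rintro _ ⟨x, hx, rfl⟩; exact hTinv a x hx)
        (fun x hx => ⟨φ a⁻¹ x, hTinv a⁻¹ x hx, by simp [map_inv]⟩))
      map_one' := MulEquiv.ext fun q => by
        obtain ⟨g, rfl⟩ := QuotientGroup.mk_surjective q
        simp
      map_mul' := fun x y => MulEquiv.ext fun q => by
        obtain ⟨g, rfl⟩ := QuotientGroup.mk_surjective q
        rw [MulAut.mul_apply]
        show ((φ (x * y) g : R) : R ⧸ T) = ((φ x (φ y g) : R) : R ⧸ T)
        rw [map_mul, MulAut.mul_apply] }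
  have hgen' : Generates ψ := hgen.map (QuotientGroup.mk' T) (QuotientGroup.mk'_surjective T) fun a x => rfl
  refine comm_of_small_derived hp2 (hR.to_quotient T) ψ hgen' hco ?_ ?_
  · refine ⟨N.map (QuotientGroup.mk' T), hN.map _ (QuotientGroup.mk'_surjective T), ?_, ?_⟩
    · exact isCyclic_of_surjective ((QuotientGroup.mk' T).subgroupMap N) (MonoidHom.subgroupMap_surjective _ _)
    · refine isCyclic_of_surjective (QuotientGroup.map N (N.map (QuotientGroup.mk' T)) (QuotientGroup.mk' T)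
        (fun x hx => ⟨x, hx, rfl⟩)) ?_
      intro q
      obtain ⟨x, rfl⟩ := QuotientGroup.mk_surjective q
      obtain ⟨y, rfl⟩ := QuotientGroup.mk_surjective x
      exact ⟨(y : R ⧸ N), rfl⟩
  · have himg : commutator (R ⧸ T) = D.map (QuotientGroup.mk' T) := by
      rw [hD, commutator_def, commutator_def, Subgroup.map_commutator,
        Subgroup.map_top_of_surjective _ (QuotientGroup.mk'_surjective T)]
    rw [himg]
    haveI : IsCyclic (D.map (QuotientGroup.mk' T)) :=
      isCyclic_of_surjective ((QuotientGroup.mk' T).subgroupMap D) (MonoidHom.subgroupMap_surjective _ _)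
    have hexp : ∀ v ∈ D.map (QuotientGroup.mk' T), v ^ p = 1 := by
      rintro _ ⟨y, hy, rfl⟩
      rw [← map_pow]
      exact (QuotientGroup.eq_one_iff _).2 ⟨y, hy, rfl⟩
    obtain ⟨g, hg⟩ := IsCyclic.exists_generator (α := D.map (QuotientGroup.mk' T))
    have hcard : Nat.card (D.map (QuotientGroup.mk' T)) = orderOf g := by
      rw [← Nat.card_zpowers, (Subgroup.eq_top_iff' _).2 hg, Subgroup.card_top]
    rw [hcard]
    refine orderOf_eq_prime (Subtype.ext (hexp _ g.2)) fun h1 => ?_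
    -- otherwise the `p`-th power map on `D` is onto
    have hle : D ≤ T := by
      intro x hx
      have := hg ⟨QuotientGroup.mk' T x, x, hx, rfl⟩
      rw [h1, Subgroup.zpowers_one_eq_bot, Subgroup.mem_bot] at this
      exact (QuotientGroup.eq_one_iff x).1 (congrArg Subtype.val this)
    have hsurj : Function.Surjective fun y : D => y ^ p := fun x => by
      obtain ⟨y, hy, hyx⟩ := hle x.2
      exact ⟨⟨y, hy⟩, Subtype.ext hyx⟩
    have hinj := (Finite.injective_iff_surjective (f := fun y : D => y ^ p)).2 hsurj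
    obtain ⟨e, he⟩ := (hR.to_subgroup D).exists_card_eq
    have he0 : e ≠ 0 := fun h => hDne (Subgroup.card_eq_one.1 (by rw [he, h, pow_zero]))
    obtain ⟨c, hc⟩ := exists_prime_orderOf_dvd_card' (G := D) p (he ▸ dvd_pow_self p he0)
    have : c = 1 := hinj (by
      show c ^ p = 1 ^ p
      rw [← hc, pow_orderOf_eq_one, one_pow])
    rw [this, orderOf_one] at hc
    exact hp.out.one_lt.ne hc

end CfsgLib.CoprimeMeta
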