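import Cfsg.Agent.CoprimeMeta.Action
import Cfsg.Agent.S0639
import Cfsg.Agent.S3771
import Cfsg.Agent.PLocalBasics.SmallOmega

/-!
A `p`-group of rank two, `p > 3`, generated by the commutators with an odd coprime operator group, is abelian
or the central product of an extraspecial group of order `p ^ 3` and a cyclic group.
-/

set_option autoImplicit false
set_option linter.style.haveILetI false

namespace CfsgLib.CoprimeMeta

open scoped commutatorElement

variable {p : ℕ} [hp : Fact p.Prime] {A : Type*} [Group A] [Finite A] {R : Type*} [Group R] [Finite R]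

omit hp [Finite A] [Finite R] in
theorem zpow_congr_of_pow {x : R} (hx : x ^ p = 1) {i j : ℤ} (h : (p : ℤ) ∣ i - j) : x ^ i = x ^ j := by
  obtain ⟨e, he⟩ := h
  rw [show i = j + (p : ℤ) * e by omega, zpow_add, zpow_mul, zpow_natCast, hx, one_zpow, mul_one]

omit [Finite A] [Finite R] in
theorem dvd_of_zpow_mem {H : Subgroup R} {x : R} (hx : x ^ p ∈ H) (hxH : x ∉ H) {i : ℤ} (h : x ^ i ∈ H) :
    (p : ℤ) ∣ i := by
  by_contra hnd
  obtain ⟨s, t, hst⟩ := (Nat.prime_iff_prime_int.1 hp.out).coprime_iff_not_dvd.2 hnd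
  apply hxH
  rw [show x = x ^ ((s * (p : ℤ)) + t * i) by rw [hst, zpow_one], zpow_add, mul_comm s, zpow_mul, zpow_natCast,
    mul_comm t, zpow_mul]
  exact H.mul_mem (H.zpow_mem hx s) (H.zpow_mem h t)

theorem rank_two_structure (hp3 : 3 < p) (hR : IsPGroup p R)
    (hrk : ∀ E : Subgroup R, Cfsg.IsElementaryAbelian p E → Nat.card E ≤ p ^ 2)
    (φ : A →* MulAut R) (hgen : Generates φ) (hco : (Nat.card A).Coprime p) (hodd : Odd (Nat.card A)) :
    IsMulCommutative R ∨ ∃ Ω C : Subgroup R, Ω ⊔ C = ⊤ ∧ (∀ a ∈ Ω, ∀ b ∈ C, a * b = b * a) ∧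
      ¬ IsMulCommutative Ω ∧ Nat.card Ω = p ^ 3 ∧ (∀ x ∈ Ω, x ^ p = 1) ∧ IsCyclic C ∧
      ⁅Ω, Ω⁆ = Ω ⊓ C ∧ Nat.card (Ω ⊓ C : Subgroup R) = p ∧ ∀ x ∈ C, x ^ p = 1 → x ∈ Ω := by
  classical
  have hp2 : p ≠ 2 := by omega
  have hpp : p.Prime := hp.out
  have hpZ : Prime (p : ℤ) := Nat.prime_iff_prime_int.1 hpp
  by_cases hsmall : Nat.card ↥(Cfsg.omegaOne p (⊤ : Subgroup R)) ≤ p ^ 2
  · exact Or.inl (comm_of_metacyclic hp2 hR φ hgen hco (Cfsg.Agent.S0639.result hp3 hR hsmall))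
  right
  set Ω := Cfsg.omegaOne p (⊤ : Subgroup R) with hΩ
  have hexp : ∀ x ∈ Ω, x ^ p = 1 := PLocalBasics.exists_exponent_subgroup hR hp3 hrk
  have hmemΩ : ∀ x : R, x ^ p = 1 → x ∈ Ω := fun x hx => Subgroup.subset_closure ⟨Subgroup.mem_top x, hx⟩
  have hΩinv : ∀ (σ : MulAut R), ∀ x ∈ Ω, σ x ∈ Ω := fun σ x hx =>
    hmemΩ _ (by rw [← map_pow, hexp x hx, map_one])
  haveI hΩn : Ω.Normal := ⟨fun x hx g => hΩinv (MulAut.conj g) x hx⟩
  have hΩc : Nat.card Ω = p ^ 3 := by
    refine le_antisymm (Cfsg.Agent.S3771.result (hR.to_subgroup Ω) (fun B hB hBe => ?_)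
      (fun x => Subtype.ext (hexp x x.2))) ?_
    · haveI := hB
      refine le_of_eq_of_le (Subgroup.card_map_of_injective Ω.subtype_injective).symm
        (hrk (B.map Ω.subtype) ⟨inferInstance, ?_⟩)
      rintro _ ⟨b, hb, rfl⟩
      exact congrArg Subtype.val (hBe b hb)
    · obtain ⟨n, hn⟩ := (hR.to_subgroup Ω).exists_card_eq
      rw [hn, Nat.pow_le_pow_iff_right hpp.one_lt] at hsmall
      rw [hn]
      exact Nat.pow_le_pow_right hpp.pos (by omega)
  have hΩnc : ¬ IsMulCommutative Ω := fun h => by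
    have := hrk Ω ⟨h, hexp⟩
    rw [hΩc, Nat.pow_le_pow_iff_right hpp.one_lt] at this
    omega
  set C := Subgroup.centralizer (Ω : Set R) with hC
  set Z := Ω ⊓ C with hZ
  haveI hCn : C.Normal := inferInstance
  haveI hZn : Z.Normal := inferInstance
  have hCinv : ∀ (a : A), ∀ x ∈ C, φ a x ∈ C := by
    intro a x hx
    refine Subgroup.mem_centralizer_iff.2 fun w hw => ?_
    have h := Subgroup.mem_centralizer_iff.1 hx ((φ a).symm w) (hΩinv (φ a).symm w hw)
    simpa using congrArg (φ a) h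
  have hZc : Nat.card Z = p := by
    obtain ⟨k, hk⟩ := (hR.to_subgroup Z).exists_card_eq
    have hk1 : k ≤ 1 := by
      by_contra hk2
      refine hΩnc ?_
      -- some element outside `Z` would be central in `Ω`
      obtain ⟨t, ht, htZ⟩ : ∃ t ∈ Ω, t ∉ Z := by
        by_contra hc
        push Not at hc
        exact hΩnc ⟨⟨fun a b => Subtype.ext (Subgroup.mem_centralizer_iff.1 (hc b b.2).2 a a.2)⟩⟩
      have hlt : Z < Z ⊔ Subgroup.zpowers t := lt_of_le_of_ne le_sup_left fun h =>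
        htZ (h ▸ (le_sup_right : Subgroup.zpowers t ≤ _) (Subgroup.mem_zpowers t))
      have htop : Z ⊔ Subgroup.zpowers t = Ω := by
        refine Subgroup.eq_of_le_of_card_ge (sup_le inf_le_left (Subgroup.zpowers_le.2 ht)) ?_
        rw [hΩc]
        refine le_trans ?_ (CfsgLib.NormalEl.pow_succ_le_card hR hlt hk)
        exact Nat.pow_le_pow_right hpp.pos (by omega)
      have hle : Ω ≤ Subgroup.centralizer ({t} : Set R) := by
        rw [← htop, sup_le_iff, Subgroup.zpowers_le]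
        exact ⟨fun z hz => Subgroup.mem_centralizer_singleton_iff.2 (Subgroup.mem_centralizer_iff.1 hz.2 t ht).symm,
          Subgroup.mem_centralizer_singleton_iff.2 rfl⟩
      exact absurd ⟨ht, Subgroup.mem_centralizer_iff.2 fun w hw =>
        Subgroup.mem_centralizer_singleton_iff.1 (hle hw)⟩ htZ
    haveI : Nontrivial Ω := Finite.one_lt_card_iff_nontrivial.1 (by rw [hΩc]; exact Nat.one_lt_pow (by omega) hpp.one_lt)
    haveI := (hR.to_subgroup Ω).center_nontrivial
    obtain ⟨⟨x, hx⟩, hx1⟩ := exists_ne (1 : Subgroup.center Ω)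
    have hxZ : (x : R) ∈ Z := ⟨x.2, Subgroup.mem_centralizer_iff.2 fun w hw =>
      congrArg Subtype.val (Subgroup.mem_center_iff.1 hx ⟨w, hw⟩)⟩
    rcases Nat.eq_zero_or_pos k with rfl | hk0
    · rw [Subgroup.card_eq_one.1 (hk.trans (pow_zero p)), Subgroup.mem_bot] at hxZ
      exact absurd (Subtype.ext (Subtype.ext hxZ)) hx1
    · rw [hk, show k = 1 by omega, pow_one]
  have hZR : Z ≤ Subgroup.center R := PLocalBasics.le_center_of_card_le hR hZn hZc.le
  -- commutators in `Ω`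
  have hΩ2 : ∀ a ∈ Ω, ∀ b ∈ Ω, ⁅a, b⁆ ∈ Z := by
    intro a ha b hb
    set q := QuotientGroup.mk' (Z.subgroupOf Ω)
    have hq : Nat.card (Ω ⧸ Z.subgroupOf Ω) = p ^ 2 := by
      have h := Subgroup.card_eq_card_quotient_mul_card_subgroup (Z.subgroupOf Ω)
      rw [hΩc, Nat.card_congr (Subgroup.subgroupOfEquivOfLe (inf_le_left : Z ≤ Ω)).toEquiv, hZc, pow_succ] at h
      exact (Nat.eq_of_mul_eq_mul_right hpp.pos h).symm
    haveI := IsPGroup.isMulCommutative_of_card_eq_prime_sq hq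
    have h : q ⁅(⟨a, ha⟩ : Ω), ⟨b, hb⟩⁆ = 1 := by
      rw [map_commutatorElement, commutatorElement_eq_one_iff_mul_comm]
      exact mul_comm' _ _
    exact Subgroup.mem_subgroupOf.1 ((QuotientGroup.eq_one_iff _).1 h)
  have hΩΩ : ⁅Ω, Ω⁆ = Z := by
    have hle : ⁅Ω, Ω⁆ ≤ Z := Subgroup.commutator_le.2 fun a ha b hb => hΩ2 a ha b hb
    obtain ⟨k, hk⟩ := (hR.to_subgroup ⁅Ω, Ω⁆).exists_card_eq
    refine Subgroup.eq_of_le_of_card_ge hle ?_
    rw [hZc, hk]
    refine Nat.le_self_pow (fun h0 => hΩnc ⟨⟨fun a b => Subtype.ext ?_⟩⟩) p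
    have hbot : ⁅Ω, Ω⁆ = ⊥ := Subgroup.card_eq_one.1 (by rw [hk, h0, pow_zero])
    have hab : ⁅(a : R), (b : R)⁆ ∈ (⊥ : Subgroup R) := hbot ▸ Subgroup.commutator_mem_commutator a.2 b.2
    exact commutatorElement_eq_one_iff_mul_comm.1 (Subgroup.mem_bot.1 hab)
  have hCp : ∀ x ∈ C, x ^ p = 1 → x ∈ Z := fun x hx hxp => ⟨hmemΩ x hxp, hx⟩
  have hunique : ∀ (H : Subgroup R), (∀ x ∈ H, x ^ p = 1 → x ∈ Z) → IsCyclic H := by
    intro H hH
    refine CfsgLib.RankOneP.isCyclic_of_odd hp2 (hR.to_subgroup H) fun x y hx hy hx1 => ?_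
    have hxZ := hH x x.2 (congrArg Subtype.val hx)
    have hyZ := hH y y.2 (congrArg Subtype.val hy)
    have hgenZ : Subgroup.zpowers (x : R) = Z :=
      Subgroup.eq_of_le_of_card_ge (Subgroup.zpowers_le.2 hxZ) (by
        rw [hZc, Nat.card_zpowers]
        exact (orderOf_eq_prime (congrArg Subtype.val hx) (fun h => hx1 (Subtype.ext h))).ge)
    obtain ⟨i, hi⟩ := Subgroup.mem_zpowers_iff.1 (hgenZ.symm ▸ hyZ : (y : R) ∈ Subgroup.zpowers (x : R))
    exact Subgroup.mem_zpowers_iff.2 ⟨i, Subtype.ext (by rw [Subgroup.coe_zpow, hi])⟩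
  have hCcyc : IsCyclic C := hunique C hCp
  refine ⟨Ω, C, ?_, fun a ha b hb => Subgroup.mem_centralizer_iff.1 hb a ha, hΩnc, hΩc, hexp, hCcyc, hΩΩ, hZc,
    fun x _ hx => hmemΩ x hx⟩
  -- the kernel of the action on `Ω / Z` is `Ω C`
  by_contra hne
  set M := Ω ⊓ (Subgroup.center (R ⧸ Z)).comap (QuotientGroup.mk' Z) with hM
  have hMmem : ∀ w, w ∈ M ↔ w ∈ Ω ∧ ∀ g : R, ⁅g, w⁆ ∈ Z := by
    intro w
    rw [hM, Subgroup.mem_inf, Subgroup.mem_comap, Subgroup.mem_center_iff]
    refine and_congr_right fun _ => ⟨fun h g => ?_, fun h q => ?_⟩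
    · rw [← QuotientGroup.eq_one_iff]
      show QuotientGroup.mk' Z ⁅g, w⁆ = 1
      rw [map_commutatorElement, commutatorElement_eq_one_iff_mul_comm]
      exact h _
    · obtain ⟨g, rfl⟩ := QuotientGroup.mk'_surjective Z q
      rw [← commutatorElement_eq_one_iff_mul_comm, ← map_commutatorElement]
      exact (QuotientGroup.eq_one_iff _).2 (h g)
  haveI hMn : M.Normal := inferInstance
  have hMinv : ∀ (a : A), ∀ w ∈ M, φ a w ∈ M := by
    intro a w hw
    obtain ⟨hwΩ, hwg⟩ := (hMmem w).1 hw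
    refine (hMmem _).2 ⟨hΩinv _ w hwΩ, fun g => ?_⟩
    have h := hwg ((φ a).symm g)
    have h' : φ a ⁅(φ a).symm g, w⁆ = ⁅g, φ a w⁆ := by rw [map_commutatorElement, MulEquiv.apply_symm_apply]
    rw [← h']
    exact ⟨hΩinv _ _ h.1, hCinv a _ h.2⟩
  have hZM : Z ≤ M := fun z hz => (hMmem z).2 ⟨hz.1, fun g => by
    rw [commutatorElement_eq_one_iff_mul_comm.2 (Subgroup.mem_center_iff.1 (hZR hz) g)]; exact one_mem _⟩
  obtain ⟨l, hlM, hlZ⟩ : ∃ l ∈ M, l ∉ Z := by
    obtain ⟨x, hx, hxZ, hxg⟩ := CfsgLib.PGroup.exists_mem_central_mod hR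
      (lt_of_le_of_ne (inf_le_left : Z ≤ Ω) fun h => by
        have hZΩ : Z = Ω := h
        rw [hZΩ, hΩc] at hZc
        exact absurd hZc (by
          intro h'
          have : p ^ 1 < p ^ 3 := Nat.pow_lt_pow_right hpp.one_lt (by omega)
          rw [pow_one, h'] at this
          exact lt_irrefl _ this))
    refine ⟨x, (hMmem x).2 ⟨hx, fun g => ?_⟩, hxZ⟩
    rw [← commutatorElement_inv]
    exact Z.inv_mem (hxg g)
  have hlΩ : l ∈ Ω := ((hMmem l).1 hlM).1
  have hlp : l ^ p = 1 := hexp l hlΩ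
  obtain ⟨t, htΩ, htl⟩ : ∃ t ∈ Ω, ⁅t, l⁆ ≠ 1 := by
    by_contra hc
    push Not at hc
    exact hlZ ⟨hlΩ, Subgroup.mem_centralizer_iff.2 fun w hw => commutatorElement_eq_one_iff_mul_comm.1 (hc w hw)⟩
  set z := ⁅t, l⁆ with hz
  have hzZ : z ∈ Z := hΩ2 t htΩ l hlΩ
  have hzp : z ^ p = 1 := hexp z hzZ.1
  have hzo : orderOf z = p := orderOf_eq_prime hzp htl
  have hzgen : ∀ c ∈ Z, ∃ i : ℤ, c = z ^ i := fun c hc => by
    have : Subgroup.zpowers z = Z := Subgroup.eq_of_le_of_card_ge (Subgroup.zpowers_le.2 hzZ)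
      (by rw [hZc, Nat.card_zpowers, hzo])
    obtain ⟨i, hi⟩ := Subgroup.mem_zpowers_iff.1 (this.symm ▸ hc : c ∈ Subgroup.zpowers z)
    exact ⟨i, hi.symm⟩
  have htp : t ^ p = 1 := hexp t htΩ
  have hzdvd : ∀ i : ℤ, z ^ i = 1 → (p : ℤ) ∣ i := fun i h => by
    rw [← hzo, orderOf_dvd_iff_zpow_eq_one]; exact h
  -- `Ω` is generated by `t`, `l` and `Z`
  have hΩgen : ∀ w ∈ Ω, ∃ (i j : ℤ) (c : R), c ∈ Z ∧ w = t ^ i * l ^ j * c := by
    have h1 : Z < Z ⊔ Subgroup.zpowers l := lt_of_le_of_ne le_sup_left fun h =>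
      hlZ (h ▸ (le_sup_right : Subgroup.zpowers l ≤ _) (Subgroup.mem_zpowers l))
    have hh1 := CfsgLib.NormalEl.pow_succ_le_card hR h1 (hZc.trans (pow_one p).symm)
    have htnot : t ∉ Z ⊔ Subgroup.zpowers l := by
      intro h
      obtain ⟨c, hc, _, ⟨i, rfl⟩, rfl⟩ := Subgroup.mem_sup_of_normal_left.1 h
      apply htl
      rw [hz, commutatorElement_eq_one_iff_mul_comm]
      exact ((Commute.mul_left (Subgroup.mem_center_iff.1 (hZR hc) l).symm ((Commute.refl l).zpow_left i)) :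
        Commute (c * l ^ i) l).eq
    have h2 : Z ⊔ Subgroup.zpowers l < Z ⊔ Subgroup.zpowers l ⊔ Subgroup.zpowers t :=
      lt_of_le_of_ne le_sup_left fun h => htnot (h ▸ (le_sup_right : Subgroup.zpowers t ≤ _) (Subgroup.mem_zpowers t))
    obtain ⟨k, hk⟩ := (hR.to_subgroup (Z ⊔ Subgroup.zpowers l)).exists_card_eq
    have hh2 := CfsgLib.NormalEl.pow_succ_le_card hR h2 hk
    have htop : Z ⊔ Subgroup.zpowers l ⊔ Subgroup.zpowers t = Ω := by
      refine Subgroup.eq_of_le_of_card_ge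
        (sup_le (sup_le inf_le_left (Subgroup.zpowers_le.2 hlΩ)) (Subgroup.zpowers_le.2 htΩ)) ?_
      rw [hΩc]
      refine le_trans (Nat.pow_le_pow_right hpp.pos ?_) hh2
      rw [hk, Nat.pow_le_pow_iff_right hpp.one_lt] at hh1
      omega
    haveI : (Z ⊔ Subgroup.zpowers l).Normal := ⟨fun x hx g => by
      obtain ⟨c, hc, _, ⟨i, rfl⟩, rfl⟩ := Subgroup.mem_sup_of_normal_left.1 hx
      have hmem : ⁅g, c * l ^ i⁆ ∈ Z := ((hMmem _).1 (M.mul_mem (hZM hc) (M.zpow_mem hlM i))).2 g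
      rw [show g * (c * l ^ i) * g⁻¹ = ⁅g, c * l ^ i⁆ * (c * l ^ i) by rw [commutatorElement_def]; group]
      exact Subgroup.mul_mem _ (Subgroup.mem_sup_left hmem) hx⟩
    intro w hw
    rw [← htop] at hw
    obtain ⟨u, hu, _, ⟨i, rfl⟩, rfl⟩ := Subgroup.mem_sup_of_normal_left.1 hw
    obtain ⟨c, hc, _, ⟨j, rfl⟩, rfl⟩ := Subgroup.mem_sup_of_normal_left.1 hu
    have h3 := hΩ2 _ (Ω.zpow_mem hlΩ j) _ (Ω.zpow_mem htΩ i)
    refine ⟨i, j, c * ⁅l ^ j, t ^ i⁆, Z.mul_mem hc h3, ?_⟩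
    show c * l ^ j * t ^ i = _
    rw [Subgroup.mem_center_iff.1 (hZR (Z.mul_mem hc h3)) (t ^ i * l ^ j), commutatorElement_def]
    group
  -- commutator with `l`
  have hlcomm : ∀ g : R, ⁅g, l⁆ ∈ Z := ((hMmem l).1 hlM).2
  let πl : R →* R := MonoidHom.mk' (fun g => ⁅g, l⁆)
    fun g g' => CfsgLib.PGroup.commutator_mul_left_central (hZR (hlcomm g'))
  have hπl : ∀ g, πl g = ⁅g, l⁆ := fun g => rfl
  have htM : t ∉ M := by
    intro h
    refine hne (eq_top_iff.2 fun g _ => ?_)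
    obtain ⟨i, hi⟩ := hzgen _ (((hMmem t).1 h).2 g)
    obtain ⟨j, hj⟩ := hzgen _ (hlcomm g)
    set ω := t ^ j * l ^ (-i) with hω
    let πt : R →* R := MonoidHom.mk' (fun g => ⁅g, t⁆)
      fun g g' => CfsgLib.PGroup.commutator_mul_left_central (hZR (((hMmem t).1 h).2 g'))
    have hlt' : ⁅l, t⁆ = z⁻¹ := by rw [hz, commutatorElement_inv]
    have e1 : πt ω = πt g := by
      show πt (t ^ j * l ^ (-i)) = πt g
      rw [map_mul, map_zpow, map_zpow, show πt t = 1 from commutatorElement_self t, show πt l = z⁻¹ from hlt',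
        one_zpow, one_mul, inv_zpow', neg_neg, show πt g = ⁅g, t⁆ from rfl, hi]
    have e2 : πl ω = πl g := by
      rw [hω, map_mul, map_zpow, map_zpow, hπl l, commutatorElement_self, one_zpow, mul_one, hπl t, hπl g, hj, hz]
    have hd : ω⁻¹ * g ∈ C := by
      have c1 : ⁅ω⁻¹ * g, t⁆ = 1 := by
        show πt (ω⁻¹ * g) = 1
        rw [map_mul, map_inv, e1, inv_mul_cancel]
      have c2 : ⁅ω⁻¹ * g, l⁆ = 1 := by
        show πl (ω⁻¹ * g) = 1
        rw [map_mul, map_inv, e2, inv_mul_cancel]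
      refine Subgroup.mem_centralizer_iff.2 fun w hw => ?_
      obtain ⟨a, b, c, hc, rfl⟩ := hΩgen w hw
      have h1 : Commute (ω⁻¹ * g) t := commutatorElement_eq_one_iff_mul_comm.1 c1
      have h2 : Commute (ω⁻¹ * g) l := commutatorElement_eq_one_iff_mul_comm.1 c2
      exact (((h1.zpow_right a).mul_right (h2.zpow_right b)).mul_right
        (Subgroup.mem_center_iff.1 (hZR hc) _)).symm.eq
    rw [show g = ω * (ω⁻¹ * g) by group]
    exact Subgroup.mul_mem_sup (Ω.mul_mem (Ω.zpow_mem htΩ j) (Ω.zpow_mem hlΩ _)) hd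
  have hMgen : ∀ w ∈ M, ∃ (j : ℤ) (c : R), c ∈ Z ∧ w = l ^ j * c := by
    intro w hw
    obtain ⟨i, j, c, hc, rfl⟩ := hΩgen w ((hMmem w).1 hw).1
    have hti : t ^ i ∈ M := by
      have := M.mul_mem (M.mul_mem hw (M.inv_mem (hZM hc))) (M.inv_mem (M.zpow_mem hlM j))
      rwa [mul_inv_cancel_right, mul_inv_cancel_right] at this
    have hdv := dvd_of_zpow_mem (p := p) (by rw [htp]; exact one_mem _) htM hti
    refine ⟨j, c, hc, ?_⟩
    rw [zpow_congr_of_pow htp (show (p : ℤ) ∣ i - 0 by simpa using hdv), zpow_zero, one_mul]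
  have hΩM : ∀ w ∈ Ω, ∃ (i : ℤ) (m : R), m ∈ M ∧ w = t ^ i * m := by
    intro w hw
    obtain ⟨i, j, c, hc, rfl⟩ := hΩgen w hw
    exact ⟨i, l ^ j * c, M.mul_mem (M.zpow_mem hlM j) (hZM hc), by rw [mul_assoc]⟩
  -- `R / K` has order `p`
  have htcomm : ∀ g : R, ⁅g, t⁆ ∈ M := by
    intro g
    set q := QuotientGroup.mk' M
    have hle : Nat.card (Ω.map q) ≤ p := by
      have hsub : Ω.map q ≤ Subgroup.zpowers (q t) := by
        rintro _ ⟨w, hw, rfl⟩
        obtain ⟨i, m, hm, rfl⟩ := hΩM w hw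
        rw [map_mul, map_zpow, show q m = 1 from (QuotientGroup.eq_one_iff m).2 hm, mul_one]
        exact Subgroup.zpow_mem_zpowers _ i
      refine (Subgroup.card_le_of_le hsub).trans ?_
      rw [Nat.card_zpowers]
      exact Nat.le_of_dvd hpp.pos (orderOf_dvd_of_pow_eq_one (by rw [← map_pow, htp, map_one]))
    have hc := PLocalBasics.le_center_of_card_le (hR.to_quotient M)
      (hΩn.map q (QuotientGroup.mk'_surjective M)) hle (Subgroup.mem_map_of_mem q htΩ)
    rw [← QuotientGroup.eq_one_iff]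
    show q ⁅g, t⁆ = 1
    rw [map_commutatorElement, commutatorElement_eq_one_iff_mul_comm]
    exact Subgroup.mem_center_iff.1 hc (q g)
  -- modulo `Z`
  set qZ := QuotientGroup.mk' Z with hqZ
  have hqZ1 : ∀ x ∈ Z, qZ x = 1 := fun x hx => (QuotientGroup.eq_one_iff x).2 hx
  have hqMc : ∀ w ∈ M, qZ w ∈ Subgroup.center (R ⧸ Z) := fun w hw => hw.2
  let πT : R →* R ⧸ Z := MonoidHom.mk' (fun g => ⁅qZ g, qZ t⁆) fun g g' => by
    rw [map_mul]
    refine CfsgLib.PGroup.commutator_mul_left_central ?_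
    rw [← map_commutatorElement]
    exact hqMc _ (htcomm g')
  have hqlp : qZ l ^ p = 1 := by rw [← map_pow, hlp, map_one]
  have hql1 : qZ l ≠ 1 := fun h => hlZ ((QuotientGroup.eq_one_iff l).1 h)
  have hqlo : orderOf (qZ l) = p := orderOf_eq_prime hqlp hql1
  have hπTval : ∀ g, ∃ e : ℤ, πT g = qZ l ^ e := by
    intro g
    obtain ⟨j, c, hc, hjc⟩ := hMgen _ (htcomm g)
    refine ⟨j, ?_⟩
    show ⁅qZ g, qZ t⁆ = _
    rw [← map_commutatorElement, hjc, map_mul, map_zpow, hqZ1 c hc, mul_one]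
  -- kernel
  have hKmem : ∀ g, πT g = 1 → g ∈ Ω ⊔ C := by
    intro g hg
    have hgt : ⁅g, t⁆ ∈ Z := by
      rw [← QuotientGroup.eq_one_iff]
      show qZ ⁅g, t⁆ = 1
      rw [map_commutatorElement]
      exact hg
    obtain ⟨i, hi⟩ := hzgen _ hgt
    obtain ⟨j, hj⟩ := hzgen _ (hlcomm g)
    set ω := t ^ j * l ^ (-i) with hω
    have hlt' : ⁅l, t⁆ = z⁻¹ := by rw [hz, commutatorElement_inv]
    have c2 : ⁅ω⁻¹ * g, l⁆ = 1 := by
      show πl (ω⁻¹ * g) = 1
      rw [map_mul, map_inv, show πl ω = πl g by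
        rw [hω, map_mul, map_zpow, map_zpow, hπl l, commutatorElement_self, one_zpow, mul_one, hπl t, hπl g, hj,
          hz], inv_mul_cancel]
    have c1 : ⁅ω⁻¹ * g, t⁆ = 1 := by
      -- computed inside the elements commuting with `t` modulo `Z`
      let S : Subgroup R :=
        { carrier := {x | ⁅x, t⁆ ∈ Z}
          one_mem' := by simp
          mul_mem' := fun {x y} hx hy => by
            show ⁅x * y, t⁆ ∈ Z
            rw [CfsgLib.PGroup.commutator_mul_left_central (hZR hy)]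
            exact Z.mul_mem hx hy
          inv_mem' := fun {x} hx => by
            show ⁅x⁻¹, t⁆ ∈ Z
            rw [show ⁅x⁻¹, t⁆ = x⁻¹ * ⁅x, t⁆⁻¹ * x by rw [commutatorElement_def, commutatorElement_def]; group,
              Subgroup.mem_center_iff.1 (hZR (Z.inv_mem hx)) x⁻¹, inv_mul_cancel_right]
            exact Z.inv_mem hx }
      let πt : S →* R := MonoidHom.mk' (fun x => ⁅(x : R), t⁆)
        fun x y => CfsgLib.PGroup.commutator_mul_left_central (hZR y.2)
      have htS : t ∈ S := show ⁅t, t⁆ ∈ Z by rw [commutatorElement_self]; exact one_mem _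
      have hlS : l ∈ S := show ⁅l, t⁆ ∈ Z by rw [hlt']; exact Z.inv_mem hzZ
      show πt (((⟨t, htS⟩ : S) ^ j * (⟨l, hlS⟩ : S) ^ (-i))⁻¹ * ⟨g, hgt⟩) = 1
      rw [map_mul, map_inv, map_mul, map_zpow, map_zpow, show πt ⟨t, htS⟩ = 1 from commutatorElement_self t,
        show πt ⟨l, hlS⟩ = z⁻¹ from hlt', one_zpow, one_mul, inv_zpow', neg_neg,
        show πt ⟨g, hgt⟩ = z ^ i from hi, inv_mul_cancel]
    have hd : ω⁻¹ * g ∈ C := by
      refine Subgroup.mem_centralizer_iff.2 fun w hw => ?_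
      obtain ⟨a, b, c, hc, rfl⟩ := hΩgen w hw
      have h1 : Commute (ω⁻¹ * g) t := commutatorElement_eq_one_iff_mul_comm.1 c1
      have h2 : Commute (ω⁻¹ * g) l := commutatorElement_eq_one_iff_mul_comm.1 c2
      exact (((h1.zpow_right a).mul_right (h2.zpow_right b)).mul_right
        (Subgroup.mem_center_iff.1 (hZR hc) _)).symm.eq
    rw [show g = ω * (ω⁻¹ * g) by group]
    exact Subgroup.mul_mem_sup (Ω.mul_mem (Ω.zpow_mem htΩ j) (Ω.zpow_mem hlΩ _)) hd
  have hπTker : ∀ g ∈ Ω ⊔ C, πT g = 1 := by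
    have : Ω ⊔ C ≤ πT.ker := sup_le (fun w hw => by
        show ⁅qZ w, qZ t⁆ = 1
        rw [← map_commutatorElement]
        exact hqZ1 _ (hΩ2 w hw t htΩ))
      (fun c hc => by
        show ⁅qZ c, qZ t⁆ = 1
        rw [← map_commutatorElement,
          commutatorElement_eq_one_iff_mul_comm.2 (Subgroup.mem_centralizer_iff.1 hc t htΩ).symm, map_one])
    exact fun g hg => this hg
  -- an element outside `Ω C` centralizing `l`
  obtain ⟨y, hyK, hyl⟩ : ∃ y : R, y ∉ Ω ⊔ C ∧ ⁅y, l⁆ = 1 := by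
    obtain ⟨g, hg⟩ : ∃ g : R, g ∉ Ω ⊔ C := by
      by_contra hc
      push Not at hc
      exact hne (eq_top_iff.2 fun x _ => hc x)
    obtain ⟨i, hi⟩ := hzgen _ (hlcomm g)
    refine ⟨g * t ^ (-i), fun h => hg ?_, ?_⟩
    · have := Subgroup.mul_mem _ h (Subgroup.mem_sup_left (T := C) (Ω.zpow_mem htΩ i))
      rwa [mul_assoc, ← zpow_add, neg_add_cancel, zpow_zero, mul_one] at this
    · show πl (g * t ^ (-i)) = 1
      rw [map_mul, map_zpow, hπl g, hπl t, hi, ← hz, ← zpow_add, add_neg_cancel, zpow_zero]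
  obtain ⟨e, he⟩ := hπTval y
  have he0 : ¬ (p : ℤ) ∣ e := fun h => hyK (hKmem y (by
    rw [he, zpow_congr_of_pow hqlp (show (p : ℤ) ∣ e - 0 by simpa using h), zpow_zero]))
  have hRgen : ∀ g : R, ∃ (k : ℤ) (κ : R), κ ∈ Ω ⊔ C ∧ g = y ^ k * κ := by
    intro g
    obtain ⟨i, hi⟩ := hπTval g
    obtain ⟨s, u, hsu⟩ := hpZ.coprime_iff_not_dvd.2 he0
    refine ⟨u * i, (y ^ (u * i))⁻¹ * g, hKmem _ ?_, by rw [mul_inv_cancel_left]⟩
    rw [map_mul, map_inv, map_zpow, he, hi, ← zpow_mul,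
      zpow_congr_of_pow hqlp (show (p : ℤ) ∣ e * (u * i) - i from ⟨-(s * i), by linear_combination i * hsu⟩),
      inv_mul_cancel]
  have hypK : y ^ p ∈ Ω ⊔ C := hKmem _ (by rw [map_pow, he, ← zpow_natCast, ← zpow_mul, mul_comm, zpow_mul, zpow_natCast, hqlp, one_zpow])
  have hClC : ∀ x ∈ Ω ⊔ C, ⁅x, l⁆ = 1 → ∃ (j : ℤ) (c : R), c ∈ C ∧ x = l ^ j * c := by
    intro x hx hxl
    obtain ⟨w, hw, c, hc, rfl⟩ := Subgroup.mem_sup_of_normal_left.1 hx
    obtain ⟨i, j, c', hc', rfl⟩ := hΩgen w hw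
    have hcl : ∀ c ∈ C, πl c = 1 := fun c hc =>
      commutatorElement_eq_one_iff_mul_comm.2 (Subgroup.mem_centralizer_iff.1 hc l hlΩ).symm
    have h : πl (t ^ i * l ^ j * c' * c) = 1 := hxl
    rw [map_mul, map_mul, map_mul, map_zpow, map_zpow, hπl l, commutatorElement_self, one_zpow, mul_one,
      hcl c hc, hcl c' hc'.2, mul_one, mul_one, hπl t, ← hz] at h
    refine ⟨j, c' * c, C.mul_mem hc'.2 hc, ?_⟩
    rw [zpow_congr_of_pow htp (show (p : ℤ) ∣ i - 0 by simpa using hzdvd i h), zpow_zero, one_mul, mul_assoc]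
  obtain ⟨f, c0, hc0, hyp⟩ := hClC _ hypK (by
    show πl (y ^ p) = 1
    rw [map_pow, hπl y, hyl, one_pow])
  -- the subgroup of `p`-th powers in `C`
  letI hCcomm : CommGroup C := IsCyclic.commGroup
  let Cp : Subgroup R :=
    { carrier := {x | ∃ c ∈ C, c ^ p = x}
      one_mem' := ⟨1, one_mem _, one_pow _⟩
      mul_mem' := by
        rintro _ _ ⟨c, hc, rfl⟩ ⟨c', hc', rfl⟩
        exact ⟨c * c', C.mul_mem hc hc', Commute.mul_pow (congrArg Subtype.val (mul_comm (⟨c, hc⟩ : C) ⟨c', hc'⟩)) p⟩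
      inv_mem' := by
        rintro _ ⟨c, hc, rfl⟩
        exact ⟨c⁻¹, C.inv_mem hc, inv_pow _ _⟩ }
  haveI hCpn : Cp.Normal := ⟨by
    rintro _ ⟨c, hc, rfl⟩ g
    exact ⟨g * c * g⁻¹, hCn.conj_mem c hc g, conj_pow⟩⟩
  have hCpC : Cp ≤ C := by rintro _ ⟨c, hc, rfl⟩; exact C.pow_mem hc p
  -- every operator fixes `t` modulo `M`
  have key : ∀ a : A, ∃ m ∈ M, φ a t = t * m := by
    intro a
    obtain ⟨i, m, hm, hta⟩ := hΩM _ (hΩinv (φ a) t htΩ)
    obtain ⟨b, cb, hcb, hla⟩ := hMgen _ (hMinv a l hlM)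
    obtain ⟨k, κ, hκ, hya⟩ := hRgen (φ a y)
    have hπlM : ∀ w ∈ M, πl w = 1 := fun w hw => by
      obtain ⟨j, c, hc, rfl⟩ := hMgen w hw
      rw [map_mul, map_zpow, hπl l, commutatorElement_self, one_zpow, one_mul, hπl c,
        commutatorElement_eq_one_iff_mul_comm.2 (Subgroup.mem_center_iff.1 (hZR hc) l).symm]
    have hza : φ a z = z ^ (i * b) := by
      rw [hz, map_commutatorElement, hla, hta,
        CfsgLib.PGroup.commutator_mul_right_central (by
          rw [commutatorElement_eq_one_iff_mul_comm.2 (Subgroup.mem_center_iff.1 (hZR hcb) _)]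
          exact one_mem _),
        commutatorElement_eq_one_iff_mul_comm.2 (Subgroup.mem_center_iff.1 (hZR hcb) _), mul_one]
      let πr : R →* R := MonoidHom.mk' (fun g => ⁅g, l ^ b⁆) fun g g' =>
        CfsgLib.PGroup.commutator_mul_left_central (hZR (((hMmem _).1 (M.zpow_mem hlM b)).2 g'))
      show πr (t ^ i * m) = _
      rw [map_mul, map_zpow]
      have e1 : πr m = 1 := by
        show ⁅m, l ^ b⁆ = 1
        rw [commutatorElement_eq_one_iff_mul_comm]
        exact (Commute.zpow_right (show Commute m l from commutatorElement_eq_one_iff_mul_comm.1 (hπlM m hm)) b).eq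
      let πb : Ω →* R := MonoidHom.mk' (fun w => ⁅t, (w : R)⁆)
        fun w w' => CfsgLib.PGroup.commutator_mul_right_central (hZR (hΩ2 t htΩ w' w'.2))
      have e2 : πr t = z ^ b := by
        show πb ((⟨l, hlΩ⟩ : Ω) ^ b) = _
        rw [map_zpow]
        rfl
      rw [e1, e2, mul_one, ← zpow_mul, mul_comm b i]
    have hi0 : ¬ (p : ℤ) ∣ i * b := fun h => htl ((φ a).injective (by
      rw [map_one, show φ a ⁅t, l⁆ = z ^ (i * b) from hza,
        zpow_congr_of_pow hzp (show (p : ℤ) ∣ i * b - 0 by simpa using h), zpow_zero]))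
    -- `b ≡ i k`
    have hbik : (p : ℤ) ∣ b - i * k := by
      have hqc : ∀ w ∈ M, ∀ x : R ⧸ Z, ⁅x, qZ w⁆ = 1 := fun w hw x =>
        commutatorElement_eq_one_iff_mul_comm.2 (Subgroup.mem_center_iff.1 (hqMc w hw) x)
      obtain ⟨j, c, hc, hjc⟩ := hMgen _ (htcomm y)
      have hej : qZ l ^ j = qZ l ^ e := by
        rw [← he]
        show _ = ⁅qZ y, qZ t⁆
        rw [← map_commutatorElement, hjc, map_mul, map_zpow, hqZ1 c hc, mul_one]
      have h1 : qZ (φ a ⁅y, t⁆) = qZ l ^ (b * j) := by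
        rw [hjc, map_mul, map_zpow, map_mul, map_zpow, hla, map_mul, map_zpow,
          hqZ1 _ ⟨hΩinv _ _ hc.1, hCinv a _ hc.2⟩, hqZ1 cb hcb, mul_one, mul_one, ← zpow_mul]
      have hxy : ⁅qZ (φ a y), qZ t⁆ = qZ l ^ (e * k) := by
        show πT (φ a y) = _
        rw [hya, map_mul, map_zpow, hπTker κ hκ, he, mul_one, ← zpow_mul]
      have h2 : qZ (φ a ⁅y, t⁆) = qZ l ^ (e * k * i) := by
        rw [map_commutatorElement, map_commutatorElement, hta, map_mul, map_zpow,
          CfsgLib.PGroup.commutator_mul_right_central (by rw [hqc m hm]; exact one_mem _), hqc m hm, mul_one]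
        set X := qZ (φ a y)
        set T := qZ t
        have hc2 : ⁅X, T⁆ ∈ Subgroup.center (R ⧸ Z) := by
          rw [hxy]; exact Subgroup.zpow_mem _ (hqMc l hlM) _
        have hpow : ∀ n : ℤ, ⁅X, T ^ n⁆ = ⁅X, T⁆ ^ n := by
          intro n
          induction n using Int.induction_on with
          | zero => simp
          | succ n ih =>
            rw [zpow_add_one, CfsgLib.PGroup.commutator_mul_right_central hc2, ih, zpow_add_one]
          | pred n ih =>
            have h3 := CfsgLib.PGroup.commutator_mul_right_central (b := T ^ (-(n : ℤ) - 1)) hc2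
            rw [← zpow_add_one, sub_add_cancel, ih] at h3
            rw [zpow_sub_one ⁅X, _⁆, h3, mul_inv_cancel_right]
        rw [hpow, hxy, ← zpow_mul]
      have h3 : (p : ℤ) ∣ b * j - e * k * i := by
        rw [← hqlo, orderOf_dvd_iff_zpow_eq_one, zpow_sub, ← h1, ← h2, mul_inv_cancel]
      have hje : (p : ℤ) ∣ j - e := by
        rw [← hqlo, orderOf_dvd_iff_zpow_eq_one, zpow_sub, hej, mul_inv_cancel]
      have h4 : (p : ℤ) ∣ e * (b - i * k) := by
        have := dvd_sub h3 (Dvd.dvd.mul_left hje b)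
        rwa [show b * j - e * k * i - b * (j - e) = e * (b - i * k) by ring] at this
      exact (hpZ.dvd_or_dvd h4).resolve_left he0
    have hk0 : ¬ (p : ℤ) ∣ k := fun h => hi0 (Dvd.dvd.mul_left (by
      have := dvd_add hbik (Dvd.dvd.mul_left h i)
      rwa [sub_add_cancel] at this) i)
    -- `(y ^ p) ^ a ≡ (y ^ p) ^ k`
    obtain ⟨j, cκ, hcκ, hκe⟩ := hClC κ hκ (by
      have hcy : ⁅φ a y, φ a l⁆ = 1 := by rw [← map_commutatorElement, hyl, map_one]
      rw [hla, CfsgLib.PGroup.commutator_mul_right_central (by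
          rw [commutatorElement_eq_one_iff_mul_comm.2 (Subgroup.mem_center_iff.1 (hZR hcb) _)]
          exact one_mem _),
        commutatorElement_eq_one_iff_mul_comm.2 (Subgroup.mem_center_iff.1 (hZR hcb) _), mul_one] at hcy
      obtain ⟨w, hw⟩ := hzgen _ (hlcomm κ)
      have hb0 : ¬ (p : ℤ) ∣ b := fun h => hi0 (Dvd.dvd.mul_left h i)
      have h1 : πl (φ a y) = z ^ w := by
        rw [hya, map_mul, map_zpow, hπl y, hyl, one_zpow, one_mul, hπl κ, hw]
      let πr : R →* R := MonoidHom.mk' (fun g => ⁅g, l ^ b⁆) fun g g' =>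
        CfsgLib.PGroup.commutator_mul_left_central (hZR (((hMmem _).1 (M.zpow_mem hlM b)).2 g'))
      have h2 : ⁅φ a y, l ^ b⁆ = (z ^ w) ^ b := by
        set X := φ a y
        have hc2 : ⁅X, l⁆ ∈ Subgroup.center R := hZR (hlcomm X)
        have hpow : ∀ n : ℤ, ⁅X, l ^ n⁆ = ⁅X, l⁆ ^ n := by
          intro n
          induction n using Int.induction_on with
          | zero => simp
          | succ n ih =>
            rw [zpow_add_one, CfsgLib.PGroup.commutator_mul_right_central hc2, ih, zpow_add_one]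
          | pred n ih =>
            have h3 := CfsgLib.PGroup.commutator_mul_right_central (b := l ^ (-(n : ℤ) - 1)) hc2
            rw [← zpow_add_one, sub_add_cancel, ih] at h3
            rw [zpow_sub_one ⁅X, _⁆, h3, mul_inv_cancel_right]
        rw [hpow, show ⁅X, l⁆ = z ^ w from h1]
      rw [h2, ← zpow_mul] at hcy
      have := (hpZ.dvd_or_dvd (hzdvd _ hcy)).resolve_right hb0
      rw [hw, zpow_congr_of_pow hzp (show (p : ℤ) ∣ w - 0 by simpa using this), zpow_zero])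
    have hmain : (φ a (y ^ p))⁻¹ * (y ^ p) ^ k ∈ Cp := by
      rw [← QuotientGroup.eq_one_iff]
      show QuotientGroup.mk' Cp _ = 1
      set q := QuotientGroup.mk' Cp with hq
      have hqcκ : q cκ ∈ Subgroup.center (R ⧸ Cp) := by
        have hle : Nat.card (C.map q) ≤ p := by
          obtain ⟨g, hg⟩ := IsCyclic.exists_generator (α := C)
          have hsub : C.map q ≤ Subgroup.zpowers (q g) := by
            rintro _ ⟨c, hc, rfl⟩
            obtain ⟨n, hn⟩ := Subgroup.mem_zpowers_iff.1 (hg ⟨c, hc⟩)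
            refine Subgroup.mem_zpowers_iff.2 ⟨n, ?_⟩
            rw [← map_zpow, ← Subgroup.coe_zpow, hn]
          refine (Subgroup.card_le_of_le hsub).trans ?_
          rw [Nat.card_zpowers]
          exact Nat.le_of_dvd hpp.pos (orderOf_dvd_of_pow_eq_one (by
            rw [← map_pow]; exact (QuotientGroup.eq_one_iff _).2 ⟨g, g.2, rfl⟩))
        exact PLocalBasics.le_center_of_card_le (hR.to_quotient Cp) (hCn.map q (QuotientGroup.mk'_surjective Cp))
          hle (Subgroup.mem_map_of_mem q hcκ)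
      have hyl' : Commute y l := commutatorElement_eq_one_iff_mul_comm.1 hyl
      have hcom : Commute (q y ^ k) (q (l ^ j) * q cκ) := by
        refine Commute.mul_right ?_ (Subgroup.mem_center_iff.1 hqcκ _)
        rw [← map_zpow]
        exact (((hyl'.zpow_right j).zpow_left k)).map q
      have h1 : q cκ ^ p = 1 := by
        rw [← map_pow]
        exact (QuotientGroup.eq_one_iff _).2 ⟨cκ, hcκ, rfl⟩
      rw [map_mul, map_inv, map_pow (φ a), map_pow, hya, hκe, map_mul, map_mul, map_zpow q y k, hcom.mul_pow,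
        Commute.mul_pow (Subgroup.mem_center_iff.1 hqcκ _), h1, mul_one, ← map_pow q (l ^ j),
        show (l ^ j) ^ p = 1 by rw [← zpow_natCast, ← zpow_mul, mul_comm, zpow_mul, zpow_natCast, hlp, one_zpow],
        map_one, mul_one, map_zpow, map_pow, ← zpow_natCast, ← zpow_natCast (q y), ← zpow_mul, ← zpow_mul,
        mul_comm k, inv_mul_cancel]
    have hsq : (p : ℤ) ∣ i * i - 1 := by
      by_cases hf : (p : ℤ) ∣ f
      · -- `y ^ p` generates `C`
        have hyp' : y ^ p = c0 := by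
          rw [hyp, zpow_congr_of_pow hlp (show (p : ℤ) ∣ f - 0 by simpa using hf), zpow_zero, one_mul]
        set Wc := Subgroup.zpowers y ⊔ C with hWc
        have hWcyc : IsCyclic Wc := hunique Wc fun x hx hxp => by
          refine hCp x ?_ hxp
          obtain ⟨_, ⟨n, rfl⟩, c, hc, rfl⟩ := Subgroup.mem_sup_of_normal_right.1 hx
          have hyn : y ^ n ∈ Ω ⊔ C := by
            have := Subgroup.mul_mem _ (Subgroup.mem_sup_left (T := C) (hmemΩ _ hxp))
              (Subgroup.mem_sup_right (S := Ω) (C.inv_mem hc))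
            rwa [mul_inv_cancel_right] at this
          obtain ⟨n', rfl⟩ := dvd_of_zpow_mem hypK hyK hyn
          refine C.mul_mem ?_ hc
          show y ^ ((p : ℤ) * n') ∈ C
          rw [zpow_mul, zpow_natCast, hyp']
          exact C.zpow_mem hc0 _
        have hc0gen : c0 ∉ Cp := by
          rintro ⟨c, hc, hce⟩
          letI : CommGroup Wc := IsCyclic.commGroup
          have hcom : Commute y c := congrArg Subtype.val (mul_comm
            (⟨y, Subgroup.mem_sup_left (Subgroup.mem_zpowers y)⟩ : Wc) ⟨c, Subgroup.mem_sup_right hc⟩)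
          have h1 : (y * c⁻¹) ^ p = 1 := by rw [hcom.inv_right.mul_pow, inv_pow, hce, hyp', mul_inv_cancel]
          have h2 : y ∈ Ω ⊔ C := by
            have := Subgroup.mul_mem _ (Subgroup.mem_sup_left (T := C) (hmemΩ _ h1)) (Subgroup.mem_sup_right (S := Ω) hc)
            rwa [inv_mul_cancel_right] at this
          exact hyK h2
        have hc0p : c0 ^ p ∈ Cp := ⟨c0, hc0, rfl⟩
        -- `c0` generates `C`
        obtain ⟨g, hg⟩ := IsCyclic.exists_generator (α := C)
        obtain ⟨n0, hn0⟩ := Subgroup.mem_zpowers_iff.1 (hg ⟨c0, hc0⟩)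
        have hn0' : (g : R) ^ n0 = c0 := by rw [← Subgroup.coe_zpow, hn0]
        have hn0d : ¬ (p : ℤ) ∣ n0 := by
          rintro ⟨n', rfl⟩
          refine hc0gen ⟨((g : R)) ^ n', C.zpow_mem g.2 n', ?_⟩
          rw [← hn0', ← zpow_natCast, ← zpow_mul, mul_comm]
        obtain ⟨v, hv⟩ : ∃ v : ℤ, φ a (g : R) = (g : R) ^ v := by
          obtain ⟨v, hv⟩ := Subgroup.mem_zpowers_iff.1 (hg ⟨φ a g, hCinv a g g.2⟩)
          exact ⟨v, by rw [← Subgroup.coe_zpow, hv]⟩
        obtain ⟨nz, hnz⟩ := Subgroup.mem_zpowers_iff.1 (hg ⟨z, hzZ.2⟩)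
        have hnz' : (g : R) ^ nz = z := by rw [← Subgroup.coe_zpow, hnz]
        have hvib : (p : ℤ) ∣ v - i * b := by
          apply (fun h => h)
          rw [← hzo, orderOf_dvd_iff_zpow_eq_one, zpow_sub, ← hza]
          have : z ^ v = φ a z := by rw [← hnz', map_zpow, hv, ← zpow_mul, ← zpow_mul, mul_comm]
          rw [this, mul_inv_cancel]
        have hca : φ a c0 = c0 ^ v := by
          rw [← hn0', map_zpow, hv, ← zpow_mul, ← zpow_mul, mul_comm]
        have hvk : (p : ℤ) ∣ k - v := by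
          refine dvd_of_zpow_mem hc0p hc0gen ?_
          rw [hyp', hca, ← zpow_neg, ← zpow_add, neg_add_eq_sub] at hmain
          exact hmain
        have : (p : ℤ) ∣ k * (i * i - 1) := by
          have := dvd_sub ((hvib.add (Dvd.dvd.mul_left hbik i)).add hvk) (dvd_zero (p : ℤ))
          rw [show v - i * b + i * (b - i * k) + (k - v) - 0 = -(k * (i * i - 1)) by ring, dvd_neg] at this
          exact this
        exact (hpZ.dvd_or_dvd this).resolve_left hk0
      · -- the `l`-component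
        have hmem : l ^ (k * f - b * f) ∈ Z := by
          refine ⟨Ω.zpow_mem hlΩ _, ?_⟩
          have h1 : (φ a (y ^ p))⁻¹ * (y ^ p) ^ k ∈ C := hCpC hmain
          have hcl : ∀ c ∈ C, Commute c l := fun c hc => (Subgroup.mem_centralizer_iff.1 hc l hlΩ).symm
          rw [hyp, map_mul, map_zpow, hla, ((hcl c0 hc0).symm.zpow_left f).mul_zpow, ← zpow_mul,
            Commute.mul_zpow (Subgroup.mem_center_iff.1 (hZR hcb) _), ← zpow_mul] at h1
          set d := φ a c0
          have hd : d ∈ C := hCinv a c0 hc0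
          have hcbf : cb ^ f ∈ C := C.zpow_mem hcb.2 f
          have hck : c0 ^ k ∈ C := C.zpow_mem hc0 k
          have e1 : (l ^ (b * f) * cb ^ f * d)⁻¹ * (l ^ (f * k) * c0 ^ k) =
              (cb ^ f * d)⁻¹ * ((l ^ (b * f))⁻¹ * l ^ (f * k)) * c0 ^ k := by group
          rw [e1] at h1
          have h2 := C.mul_mem (C.mul_mem (C.mul_mem hcbf hd) h1) (C.inv_mem hck)
          rw [show l ^ (k * f - b * f) = (l ^ (b * f))⁻¹ * l ^ (f * k) by
            rw [← zpow_neg, ← zpow_add]; congr 1; ring]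
          simpa [mul_assoc] using h2
        have hd := dvd_of_zpow_mem (p := p) (by rw [hlp]; exact one_mem _) hlZ hmem
        rw [show k * f - b * f = (k - b) * f by ring] at hd
        have hkb := (hpZ.dvd_or_dvd hd).resolve_right hf
        have h5 : (p : ℤ) ∣ k * (i - 1) := by
          have := dvd_neg.2 (dvd_add hkb hbik)
          rwa [show -(k - b + (b - i * k)) = k * (i - 1) by ring] at this
        rw [show i * i - 1 = (i - 1) * (i + 1) by ring]
        exact Dvd.dvd.mul_right ((hpZ.dvd_or_dvd h5).resolve_left hk0) _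
    -- odd order
    have hiter : ∀ n : ℕ, ∃ m ∈ M, φ (a ^ n) t = t ^ (i ^ n) * m := by
      intro n
      induction n with
      | zero => exact ⟨1, one_mem _, by simp⟩
      | succ n ih =>
        obtain ⟨m', hm', hn⟩ := ih
        have hconj : ∀ (w : ℤ), ∃ m'' ∈ M, (t ^ i * m) ^ w = t ^ (i * w) * m'' := by
          intro w
          refine ⟨(t ^ (i * w))⁻¹ * (t ^ i * m) ^ w, ?_, by rw [mul_inv_cancel_left]⟩
          rw [← QuotientGroup.eq_one_iff]
          show QuotientGroup.mk' M _ = 1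
          rw [map_mul, map_inv, map_zpow, map_zpow, map_mul, map_zpow,
            show QuotientGroup.mk' M m = 1 from (QuotientGroup.eq_one_iff m).2 hm, mul_one, zpow_mul, inv_mul_cancel]
        obtain ⟨m'', hm'', hw⟩ := hconj (i ^ n)
        refine ⟨m'' * φ a m', M.mul_mem hm'' (hMinv a m' hm'), ?_⟩
        rw [pow_succ' a, map_mul, MulAut.mul_apply, hn, map_mul, map_zpow, hta, hw, mul_assoc, ← pow_succ']
    obtain ⟨m', hm', hm''⟩ := hiter (Nat.card A)
    rw [pow_card_eq_one', map_one, MulAut.one_apply] at hm''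
    have hiA : (p : ℤ) ∣ i ^ Nat.card A - 1 := by
      refine dvd_of_zpow_mem (by rw [htp]; exact one_mem _) htM ?_
      have : t ^ (i ^ Nat.card A - 1) = m'⁻¹ := by
        rw [zpow_sub_one]
        rw [show t ^ (i ^ Nat.card A) = t * m'⁻¹ from eq_mul_inv_of_mul_eq hm''.symm]
        have hcm : Commute t⁻¹ (t * m'⁻¹) := by
          rw [show t * m'⁻¹ = t ^ (i ^ Nat.card A) from (eq_mul_inv_of_mul_eq hm''.symm).symm]
          exact ((Commute.refl t).inv_left).zpow_right _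
        rw [← hcm.eq, inv_mul_cancel_left]
      rw [this]
      exact M.inv_mem hm'
    obtain ⟨r, hr⟩ := hodd
    have hi1 : (p : ℤ) ∣ i - 1 := by
      rw [← ZMod.intCast_zmod_eq_zero_iff_dvd] at hsq hiA ⊢
      push_cast at hsq hiA ⊢
      rw [hr, pow_succ, pow_mul, pow_two, sub_eq_zero.1 hsq, one_pow, one_mul] at hiA
      exact hiA
    refine ⟨m, hm, ?_⟩
    rw [hta, zpow_congr_of_pow htp hi1, zpow_one]
  -- the commutator with `l` is fixed on `t`
  let Zc : CommGroup Z := { (inferInstance : Group Z) with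
    mul_comm := fun x y => Subtype.ext (Subgroup.mem_center_iff.1 (hZR y.2) x) }
  let π : R →* Z := πl.codRestrict Z hlcomm
  have hfix : ∀ a, π (φ a t) = π t := by
    intro a
    obtain ⟨m, hm, ha⟩ := key a
    obtain ⟨j, c, hc, rfl⟩ := hMgen m hm
    refine Subtype.ext ?_
    show πl (φ a t) = πl t
    rw [ha, map_mul, map_mul, map_zpow, hπl l, commutatorElement_self, one_zpow, one_mul, hπl c,
      commutatorElement_eq_one_iff_mul_comm.2 (Subgroup.mem_center_iff.1 (hZR hc) l).symm, mul_one]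
  exact htl (congrArg Subtype.val (eq_one_of_fixed φ hgen (hR.to_subgroup Z) hco π t hfix))

end CfsgLib.CoprimeMeta
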